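import Mathlib

/-!
# Frobenius norm and spectral projections of finite-order unitary matrices

Tools for the Frobenius–Jordan theorem on abelian normal subgroups of finite linear groups.
-/

set_option autoImplicit false

open scoped Matrix ComplexConjugate

namespace Cfsg.Agent.Lib.Helper74.Jordan

variable {ι : Type*} [Fintype ι] [DecidableEq ι]

/-- The squared Frobenius norm of a complex matrix. -/
noncomputable def fn (A : Matrix ι ι ℂ) : ℝ := ∑ i, ∑ j, Complex.normSq (A i j)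

omit [DecidableEq ι] in
lemma fn_nonneg (A : Matrix ι ι ℂ) : 0 ≤ fn A :=
  Finset.sum_nonneg fun _ _ => Finset.sum_nonneg fun _ _ => Complex.normSq_nonneg _

omit [DecidableEq ι] in
lemma fn_eq_zero {A : Matrix ι ι ℂ} : fn A = 0 ↔ A = 0 := by
  constructor
  · intro h
    ext i j
    unfold fn at h
    have h1 := (Finset.sum_eq_zero_iff_of_nonneg
      (fun i _ => Finset.sum_nonneg fun j _ => Complex.normSq_nonneg (A i j))).1 h i (Finset.mem_univ i)
    have h2 := (Finset.sum_eq_zero_iff_of_nonneg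
      (fun j _ => Complex.normSq_nonneg (A i j))).1 h1 j (Finset.mem_univ j)
    simpa using h2
  · rintro rfl
    simp [fn]

omit [DecidableEq ι] in
lemma fn_pos {A : Matrix ι ι ℂ} (h : A ≠ 0) : 0 < fn A :=
  lt_of_le_of_ne (fn_nonneg A) (fun h0 => h (fn_eq_zero.1 h0.symm))

omit [DecidableEq ι] in
lemma trace_conjTranspose_mul_self (A : Matrix ι ι ℂ) : (Aᴴ * A).trace = (fn A : ℂ) := by
  unfold fn Matrix.trace
  simp only [Matrix.diag_apply, Matrix.mul_apply, Matrix.conjTranspose_apply]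
  push_cast
  rw [Finset.sum_comm]
  refine Finset.sum_congr rfl fun i _ => Finset.sum_congr rfl fun j _ => ?_
  rw [Complex.normSq_eq_conj_mul_self]
  rfl

omit [DecidableEq ι] in
lemma fn_conjTranspose (A : Matrix ι ι ℂ) : fn Aᴴ = fn A := by
  unfold fn
  simp only [Matrix.conjTranspose_apply]
  rw [Finset.sum_comm]
  refine Finset.sum_congr rfl fun i _ => Finset.sum_congr rfl fun j _ => ?_
  exact Complex.normSq_conj _

omit [DecidableEq ι] in
lemma fn_smul (c : ℂ) (A : Matrix ι ι ℂ) : fn (c • A) = Complex.normSq c * fn A := by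
  unfold fn
  simp only [Matrix.smul_apply, smul_eq_mul, Complex.normSq_mul, Finset.mul_sum]

omit [DecidableEq ι] in
lemma fn_add_le (A B : Matrix ι ι ℂ) : fn (A + B) ≤ 2 * fn A + 2 * fn B := by
  unfold fn
  rw [Finset.mul_sum, Finset.mul_sum, ← Finset.sum_add_distrib]
  refine Finset.sum_le_sum fun i _ => ?_
  rw [Finset.mul_sum, Finset.mul_sum, ← Finset.sum_add_distrib]
  refine Finset.sum_le_sum fun j _ => ?_
  rw [Matrix.add_apply]
  have h1 := Complex.normSq_add (A i j) (B i j)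
  have h2 := Complex.normSq_sub (A i j) (B i j)
  have h3 := Complex.normSq_nonneg (A i j - B i j)
  linarith

omit [DecidableEq ι] in
lemma fn_sub_le (A B : Matrix ι ι ℂ) : fn (A - B) ≤ 2 * fn A + 2 * fn B := by
  have h := fn_add_le A (-B)
  have h2 : fn (-B) = fn B := by
    have := fn_smul (-1) B
    simpa using this
  rw [h2] at h
  rwa [sub_eq_add_neg]

lemma fn_unitary_mul (U A : Matrix ι ι ℂ) (hU : Uᴴ * U = 1) : fn (U * A) = fn A := by
  apply Complex.ofReal_injective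
  rw [← trace_conjTranspose_mul_self, ← trace_conjTranspose_mul_self, Matrix.conjTranspose_mul]
  have : Aᴴ * Uᴴ * (U * A) = Aᴴ * (Uᴴ * U) * A := by simp only [Matrix.mul_assoc]
  rw [this, hU, Matrix.mul_one]

lemma fn_mul_unitary (U A : Matrix ι ι ℂ) (hU : U * Uᴴ = 1) : fn (A * U) = fn A := by
  apply Complex.ofReal_injective
  rw [← trace_conjTranspose_mul_self, ← trace_conjTranspose_mul_self, Matrix.conjTranspose_mul]
  have : Uᴴ * Aᴴ * (A * U) = Uᴴ * (Aᴴ * A * U) := by simp only [Matrix.mul_assoc]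
  rw [this, Matrix.trace_mul_comm]
  have : Aᴴ * A * U * Uᴴ = Aᴴ * A * (U * Uᴴ) := by simp only [Matrix.mul_assoc]
  rw [this, hU, Matrix.mul_one]


/-! ### Roots of unity -/

/-- The standard primitive `N`-th root of unity. -/
noncomputable def rt (N : ℕ) : ℂ := Complex.exp (2 * Real.pi * Complex.I / N)

lemma rt_prim {N : ℕ} (hN : N ≠ 0) : IsPrimitiveRoot (rt N) N :=
  Complex.isPrimitiveRoot_exp N hN

/-- The `j`-th `N`-th root of unity. -/
noncomputable def ev (N j : ℕ) : ℂ := rt N ^ j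

lemma ev_pow {N : ℕ} (hN : N ≠ 0) (j : ℕ) : ev N j ^ N = 1 := by
  unfold ev
  rw [← pow_mul, mul_comm, pow_mul, (rt_prim hN).pow_eq_one, one_pow]

lemma ev_ne_zero {N : ℕ} (hN : N ≠ 0) (j : ℕ) : ev N j ≠ 0 := by
  intro h
  have := ev_pow hN j
  rw [h, zero_pow hN] at this
  exact zero_ne_one this

lemma normSq_ev {N : ℕ} (hN : N ≠ 0) (j : ℕ) : Complex.normSq (ev N j) = 1 := by
  have h1 : ‖ev N j‖ = 1 := Complex.norm_eq_one_of_pow_eq_one (ev_pow hN j) hN
  rw [Complex.normSq_eq_norm_sq, h1, one_pow]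

lemma ev_inj {N : ℕ} (hN : N ≠ 0) {i j : ℕ} (hi : i < N) (hj : j < N) (h : ev N i = ev N j) :
    i = j :=
  (rt_prim hN).pow_inj hi hj h

lemma geom_sum_root {N : ℕ} (_hN : N ≠ 0) (w : ℂ) (hw : w ^ N = 1) :
    ∑ k ∈ Finset.range N, w ^ k = if w = 1 then (N : ℂ) else 0 := by
  split_ifs with h
  · subst h; simp
  · rw [geom_sum_eq h, hw, sub_self, zero_div]

lemma exists_ev {N : ℕ} (hN : N ≠ 0) (w : ℂ) (hw : w ^ N = 1) : ∃ j < N, w = ev N j := by
  have : NeZero N := ⟨hN⟩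
  obtain ⟨j, hj, hjw⟩ := (rt_prim hN).eq_pow_of_pow_eq_one hw
  exact ⟨j, hj, hjw.symm⟩

/-! ### Spectral projections -/

/-- The spectral projection of a matrix `U` with `U ^ N = 1` for the eigenvalue `ev N j`. -/
noncomputable def proj (U : Matrix ι ι ℂ) (N j : ℕ) : Matrix ι ι ℂ :=
  (N : ℂ)⁻¹ • ∑ k ∈ Finset.range N, ((ev N j)⁻¹ • U) ^ k

section Proj

variable {U : Matrix ι ι ℂ} {N : ℕ}

lemma twist_pow (hN : N ≠ 0) (hU : U ^ N = 1) (j : ℕ) : ((ev N j)⁻¹ • U) ^ N = 1 := by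
  rw [smul_pow, hU, inv_pow, ev_pow hN, inv_one, one_smul]

lemma mul_geom_self {W : Matrix ι ι ℂ} (hW : W ^ N = 1) :
    W * ∑ k ∈ Finset.range N, W ^ k = ∑ k ∈ Finset.range N, W ^ k := by
  have h1 := geom_sum_succ (x := W) (n := N)
  have h2 := geom_sum_succ' (x := W) (n := N)
  rw [h1, hW] at h2
  rw [add_comm] at h2
  exact add_left_cancel h2

lemma mul_proj (hN : N ≠ 0) (hU : U ^ N = 1) (j : ℕ) :
    U * proj U N j = ev N j • proj U N j := by
  have h1 := mul_geom_self (twist_pow hN hU j)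
  have h2 : U = ev N j • ((ev N j)⁻¹ • U) := by
    rw [smul_smul, mul_inv_cancel₀ (ev_ne_zero hN j), one_smul]
  unfold proj
  rw [Matrix.mul_smul]
  have h3 : U * ∑ k ∈ Finset.range N, ((ev N j)⁻¹ • U) ^ k
      = ev N j • ∑ k ∈ Finset.range N, ((ev N j)⁻¹ • U) ^ k := by
    calc U * ∑ k ∈ Finset.range N, ((ev N j)⁻¹ • U) ^ k
        = (ev N j • ((ev N j)⁻¹ • U)) * ∑ k ∈ Finset.range N, ((ev N j)⁻¹ • U) ^ k := by
          rw [← h2]
      _ = ev N j • (((ev N j)⁻¹ • U) * ∑ k ∈ Finset.range N, ((ev N j)⁻¹ • U) ^ k) := by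
          rw [Matrix.smul_mul]
      _ = _ := by rw [h1]
  rw [h3, smul_comm]

lemma pow_mul_proj (hN : N ≠ 0) (hU : U ^ N = 1) (j k : ℕ) :
    U ^ k * proj U N j = ev N j ^ k • proj U N j := by
  induction k with
  | zero => simp
  | succ k ih =>
    rw [pow_succ, Matrix.mul_assoc, mul_proj hN hU, Matrix.mul_smul, ih, smul_smul, pow_succ,
      mul_comm]

lemma proj_mul_proj (hN : N ≠ 0) (hU : U ^ N = 1) {i j : ℕ} (hi : i < N) (hj : j < N) :
    proj U N i * proj U N j = if i = j then proj U N j else 0 := by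
  have h1 : proj U N i * proj U N j
      = ((N : ℂ)⁻¹ * ∑ k ∈ Finset.range N, ((ev N i)⁻¹ * ev N j) ^ k) • proj U N j := by
    conv_lhs => unfold proj
    rw [Matrix.smul_mul, Finset.sum_mul, ← smul_smul, Finset.sum_smul]
    congr 1
    refine Finset.sum_congr rfl fun k _ => ?_
    rw [smul_pow, Matrix.smul_mul]
    change _ • (U ^ k * proj U N j) = _
    rw [pow_mul_proj hN hU, smul_smul, mul_pow]
  rw [h1]
  have hw : ((ev N i)⁻¹ * ev N j) ^ N = 1 := by
    rw [mul_pow, inv_pow, ev_pow hN, ev_pow hN, inv_one, one_mul]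
  rw [geom_sum_root hN _ hw]
  have hNC : (N : ℂ) ≠ 0 := Nat.cast_ne_zero.2 hN
  by_cases hij : i = j
  · subst hij
    rw [if_pos (inv_mul_cancel₀ (ev_ne_zero hN i)), if_pos rfl, inv_mul_cancel₀ hNC, one_smul]
  · have : ¬ (ev N i)⁻¹ * ev N j = 1 := by
      intro h
      apply hij
      apply ev_inj hN hi hj
      have := congrArg (fun z => ev N i * z) h
      simp only [mul_one] at this
      rw [← mul_assoc, mul_inv_cancel₀ (ev_ne_zero hN i), one_mul] at this
      exact this.symm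
    rw [if_neg this, if_neg hij, mul_zero, zero_smul]

lemma proj_idem (hN : N ≠ 0) (hU : U ^ N = 1) {j : ℕ} (hj : j < N) :
    proj U N j * proj U N j = proj U N j := by
  rw [proj_mul_proj hN hU hj hj, if_pos rfl]

lemma proj_orth (hN : N ≠ 0) (hU : U ^ N = 1) {i j : ℕ} (hi : i < N) (hj : j < N)
    (hij : i ≠ j) : proj U N i * proj U N j = 0 := by
  rw [proj_mul_proj hN hU hi hj, if_neg hij]

lemma sum_proj (hN : N ≠ 0) (U : Matrix ι ι ℂ) :
    ∑ j ∈ Finset.range N, proj U N j = 1 := by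
  have hNC : (N : ℂ) ≠ 0 := Nat.cast_ne_zero.2 hN
  unfold proj
  rw [← Finset.smul_sum, Finset.sum_comm]
  have h1 : ∀ k ∈ Finset.range N, ∑ j ∈ Finset.range N, ((ev N j)⁻¹ • U) ^ k
      = (if k = 0 then (N : ℂ) else 0) • U ^ k := by
    intro k hk
    have hk' : k < N := Finset.mem_range.1 hk
    simp_rw [smul_pow]
    rw [← Finset.sum_smul]
    congr 1
    have h2 : ∀ j ∈ Finset.range N, ((ev N j)⁻¹) ^ k = ((rt N ^ k)⁻¹) ^ j := by
      intro j _
      unfold ev
      rw [inv_pow, inv_pow, ← pow_mul, ← pow_mul, mul_comm]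
    rw [Finset.sum_congr rfl h2]
    have hw : ((rt N ^ k)⁻¹) ^ N = 1 := by
      rw [inv_pow, ← pow_mul, mul_comm, pow_mul, (rt_prim hN).pow_eq_one, one_pow, inv_one]
    rw [geom_sum_root hN _ hw]
    by_cases hk0 : k = 0
    · subst hk0; simp
    · rw [if_neg hk0, if_neg]
      intro h
      have h3 : rt N ^ k = 1 := by
        have := inv_eq_one.1 h
        exact this
      have h4 : rt N ^ k = rt N ^ 0 := by rw [h3, pow_zero]
      exact hk0 ((rt_prim hN).pow_inj hk' (Nat.pos_of_ne_zero hN) h4)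
  rw [Finset.sum_congr rfl h1, Finset.sum_eq_single 0]
  · rw [if_pos rfl, pow_zero, smul_smul, inv_mul_cancel₀ hNC, one_smul]
  · intro k _ hk0
    rw [if_neg hk0, zero_smul]
  · intro h
    exact absurd (Finset.mem_range.2 (Nat.pos_of_ne_zero hN)) h

lemma proj_herm (hN : N ≠ 0) (hU : U ^ N = 1) (hUu : Uᴴ * U = 1) (j : ℕ) :
    (proj U N j)ᴴ = proj U N j := by
  set W := (ev N j)⁻¹ • U with hW
  have hWN : W ^ N = 1 := twist_pow hN hU j
  have hWu : Wᴴ * W = 1 := by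
    rw [hW, Matrix.conjTranspose_smul, Matrix.smul_mul, Matrix.mul_smul, smul_smul, hUu]
    have : star (ev N j)⁻¹ * (ev N j)⁻¹ = 1 := by
      have h1 := normSq_ev hN j
      have h2 : star (ev N j)⁻¹ * (ev N j)⁻¹ = ((Complex.normSq ((ev N j)⁻¹) : ℝ) : ℂ) := by
        rw [Complex.normSq_eq_conj_mul_self]; rfl
      rw [h2, Complex.normSq_inv, h1, inv_one, Complex.ofReal_one]
    rw [this, one_smul]
  set S := ∑ k ∈ Finset.range N, W ^ k with hS
  have hWS : W * S = S := mul_geom_self hWN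
  have hWS' : Wᴴ * S = S := by
    calc Wᴴ * S = Wᴴ * (W * S) := by rw [hWS]
      _ = (Wᴴ * W) * S := by rw [Matrix.mul_assoc]
      _ = S := by rw [hWu, Matrix.one_mul]
  have hpow : ∀ k : ℕ, (Wᴴ) ^ k * S = S := by
    intro k
    induction k with
    | zero => simp
    | succ k ih => rw [pow_succ, Matrix.mul_assoc, hWS', ih]
  have hSS : Sᴴ * S = (N : ℂ) • S := by
    conv_lhs => rw [hS]
    rw [Matrix.conjTranspose_sum, Finset.sum_mul]
    have : ∀ k ∈ Finset.range N, (W ^ k)ᴴ * S = S := by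
      intro k _
      rw [Matrix.conjTranspose_pow, hpow]
    rw [Finset.sum_congr rfl this, Finset.sum_const, Finset.card_range, Nat.cast_smul_eq_nsmul]
  have hSS' : Sᴴ * S = (N : ℂ) • Sᴴ := by
    have := congrArg Matrix.conjTranspose hSS
    rw [Matrix.conjTranspose_mul, Matrix.conjTranspose_conjTranspose, Matrix.conjTranspose_smul] at this
    simpa using this
  have hNC : (N : ℂ) ≠ 0 := Nat.cast_ne_zero.2 hN
  have hSeq : Sᴴ = S := by
    have h1 : (N : ℂ) • Sᴴ = (N : ℂ) • S := by rw [← hSS', hSS]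
    have h2 := congrArg (fun X => (N : ℂ)⁻¹ • X) h1
    simpa [smul_smul, inv_mul_cancel₀ hNC] using h2
  unfold proj
  rw [Matrix.conjTranspose_smul, hSeq]
  simp [hS, hW]

lemma self_eq_sum (hN : N ≠ 0) (hU : U ^ N = 1) :
    U = ∑ j ∈ Finset.range N, ev N j • proj U N j := by
  calc U = U * ∑ j ∈ Finset.range N, proj U N j := by rw [sum_proj hN, Matrix.mul_one]
    _ = ∑ j ∈ Finset.range N, ev N j • proj U N j := by
        rw [Finset.mul_sum]
        exact Finset.sum_congr rfl fun j _ => mul_proj hN hU j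

lemma sub_smul_eq_sum (hN : N ≠ 0) (hU : U ^ N = 1) (a : ℂ) :
    U - a • (1 : Matrix ι ι ℂ) = ∑ j ∈ Finset.range N, (ev N j - a) • proj U N j := by
  simp_rw [sub_smul]
  rw [Finset.sum_sub_distrib, ← self_eq_sum hN hU, ← Finset.smul_sum, sum_proj hN]

end Proj

/-! ### Norm decompositions along the spectral projections -/

section Decomp

variable {U : Matrix ι ι ℂ} {N : ℕ}

lemma fn_sum_proj (hN : N ≠ 0) (hU : U ^ N = 1) (hUu : Uᴴ * U = 1) (B : Matrix ι ι ℂ) :
    fn B = ∑ j ∈ Finset.range N, fn (proj U N j * B) := by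
  apply Complex.ofReal_injective
  rw [Complex.ofReal_sum]
  simp_rw [← trace_conjTranspose_mul_self]
  rw [← Matrix.trace_sum]
  congr 1
  have h1 : ∀ j ∈ Finset.range N, (proj U N j * B)ᴴ * (proj U N j * B) = Bᴴ * proj U N j * B := by
    intro j hj
    rw [Matrix.conjTranspose_mul, proj_herm hN hU hUu]
    calc Bᴴ * proj U N j * (proj U N j * B) = Bᴴ * (proj U N j * proj U N j) * B := by
          simp only [Matrix.mul_assoc]
      _ = _ := by rw [proj_idem hN hU (Finset.mem_range.1 hj)]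
  rw [Finset.sum_congr rfl h1, ← Finset.sum_mul, ← Finset.mul_sum, sum_proj hN, Matrix.mul_one]

lemma proj_mul_sum (hN : N ≠ 0) (hU : U ^ N = 1) (c : ℕ → ℂ) {i : ℕ} (hi : i < N) :
    proj U N i * ∑ j ∈ Finset.range N, c j • proj U N j = c i • proj U N i := by
  rw [Finset.mul_sum, Finset.sum_eq_single i]
  · rw [Matrix.mul_smul, proj_idem hN hU hi]
  · intro j hj hji
    rw [Matrix.mul_smul, proj_orth hN hU hi (Finset.mem_range.1 hj) (Ne.symm hji), smul_zero]
  · intro h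
    exact absurd (Finset.mem_range.2 hi) h

lemma fn_smul_sum (hN : N ≠ 0) (hU : U ^ N = 1) (hUu : Uᴴ * U = 1) (c : ℕ → ℂ)
    (B : Matrix ι ι ℂ) :
    fn ((∑ j ∈ Finset.range N, c j • proj U N j) * B)
      = ∑ j ∈ Finset.range N, Complex.normSq (c j) * fn (proj U N j * B) := by
  rw [fn_sum_proj hN hU hUu]
  refine Finset.sum_congr rfl fun i hi => ?_
  rw [← Matrix.mul_assoc, proj_mul_sum hN hU c (Finset.mem_range.1 hi), Matrix.smul_mul, fn_smul]

lemma fn_smul_sum_le (hN : N ≠ 0) (hU : U ^ N = 1) (hUu : Uᴴ * U = 1) (c : ℕ → ℂ) (κ : ℝ)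
    (hc : ∀ j < N, proj U N j ≠ 0 → Complex.normSq (c j) ≤ κ) (B : Matrix ι ι ℂ) :
    fn ((∑ j ∈ Finset.range N, c j • proj U N j) * B) ≤ κ * fn B := by
  rw [fn_smul_sum hN hU hUu, fn_sum_proj hN hU hUu B, Finset.mul_sum]
  refine Finset.sum_le_sum fun j hj => ?_
  by_cases h0 : proj U N j = 0
  · rw [h0, Matrix.zero_mul]
    have : fn (0 : Matrix ι ι ℂ) = 0 := fn_eq_zero.2 rfl
    rw [this, mul_zero, mul_zero]
  · exact mul_le_mul_of_nonneg_right (hc j (Finset.mem_range.1 hj) h0) (fn_nonneg _)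

lemma fn_smul_sum_lt (hN : N ≠ 0) (hU : U ^ N = 1) (hUu : Uᴴ * U = 1) (c : ℕ → ℂ) (κ : ℝ)
    (hc : ∀ j < N, proj U N j ≠ 0 → Complex.normSq (c j) < κ) {B : Matrix ι ι ℂ} (hB : B ≠ 0) :
    fn ((∑ j ∈ Finset.range N, c j • proj U N j) * B) < κ * fn B := by
  rw [fn_smul_sum hN hU hUu, fn_sum_proj hN hU hUu B, Finset.mul_sum]
  have hpos : 0 < ∑ j ∈ Finset.range N, fn (proj U N j * B) := by
    rw [← fn_sum_proj hN hU hUu B]; exact fn_pos hB
  obtain ⟨j₀, hj₀, hj₀pos⟩ := Finset.exists_lt_of_sum_lt (s := Finset.range N)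
    (f := fun _ => (0 : ℝ)) (g := fun j => fn (proj U N j * B)) (by simpa using hpos)
  refine Finset.sum_lt_sum (fun j hj => ?_) ⟨j₀, hj₀, ?_⟩
  · by_cases h0 : proj U N j = 0
    · rw [h0, Matrix.zero_mul]
      have : fn (0 : Matrix ι ι ℂ) = 0 := fn_eq_zero.2 rfl
      rw [this, mul_zero, mul_zero]
    · exact mul_le_mul_of_nonneg_right (hc j (Finset.mem_range.1 hj) h0).le (fn_nonneg _)
  · have h0 : proj U N j₀ ≠ 0 := by
      intro h0
      rw [h0, Matrix.zero_mul] at hj₀pos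
      have : fn (0 : Matrix ι ι ℂ) = 0 := fn_eq_zero.2 rfl
      rw [this] at hj₀pos
      exact lt_irrefl _ hj₀pos
    exact mul_lt_mul_of_pos_right (hc j₀ (Finset.mem_range.1 hj₀) h0) hj₀pos

lemma re_trace_conj (hN : N ≠ 0) (hU : U ^ N = 1) (hUu : Uᴴ * U = 1) (B : Matrix ι ι ℂ) :
    (Bᴴ * U * B).trace.re = ∑ j ∈ Finset.range N, (ev N j).re * fn (proj U N j * B) := by
  have h1 : Bᴴ * U * B = ∑ j ∈ Finset.range N,
      ev N j • ((proj U N j * B)ᴴ * (proj U N j * B)) := by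
    conv_lhs => rw [self_eq_sum hN hU, Finset.mul_sum, Finset.sum_mul]
    refine Finset.sum_congr rfl fun j hj => ?_
    rw [Matrix.mul_smul, Matrix.smul_mul, Matrix.conjTranspose_mul, proj_herm hN hU hUu]
    congr 1
    calc Bᴴ * proj U N j * B = Bᴴ * (proj U N j * proj U N j) * B := by
          rw [proj_idem hN hU (Finset.mem_range.1 hj)]
      _ = _ := by simp only [Matrix.mul_assoc]
  rw [h1, Matrix.trace_sum, Complex.re_sum]
  refine Finset.sum_congr rfl fun j _ => ?_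
  rw [Matrix.trace_smul, trace_conjTranspose_mul_self, smul_eq_mul, Complex.re_mul_ofReal]

end Decomp

/-! ### Elements close to the identity -/

/-- All eigenvalues of `U` (of order dividing `N`) have real part exceeding `√3 / 2`. -/
def Near (U : Matrix ι ι ℂ) (N : ℕ) : Prop :=
  ∀ j < N, proj U N j ≠ 0 → Real.sqrt 3 / 2 < (ev N j).re

lemma sqrt3_sq : Real.sqrt 3 * Real.sqrt 3 = 3 := Real.mul_self_sqrt (by norm_num)

lemma normSq_sub_real {z : ℂ} (hz : Complex.normSq z = 1) (a : ℝ) :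
    Complex.normSq (z - (a : ℂ)) = 1 + a ^ 2 - 2 * a * z.re := by
  rw [Complex.normSq_sub, hz, Complex.normSq_ofReal, Complex.conj_ofReal, Complex.re_mul_ofReal]
  ring

section Near

variable {U : Matrix ι ι ℂ} {N : ℕ}

lemma near_sub_le (hN : N ≠ 0) (hU : U ^ N = 1) (hUu : Uᴴ * U = 1) (hnear : Near U N)
    (B : Matrix ι ι ℂ) :
    fn ((U - ((Real.sqrt 3 / 2 : ℝ) : ℂ) • (1 : Matrix ι ι ℂ)) * B) ≤ 1 / 4 * fn B := by
  rw [sub_smul_eq_sum hN hU]
  refine fn_smul_sum_le hN hU hUu _ _ (fun j hj h0 => ?_) B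
  rw [normSq_sub_real (normSq_ev hN j)]
  have h1 := hnear j hj h0
  have h2 := sqrt3_sq
  have h3 : (0 : ℝ) < Real.sqrt 3 := Real.sqrt_pos.2 (by norm_num)
  nlinarith

lemma near_sub_lt (hN : N ≠ 0) (hU : U ^ N = 1) (hUu : Uᴴ * U = 1) (hnear : Near U N)
    {B : Matrix ι ι ℂ} (hB : B ≠ 0) :
    fn ((U - ((Real.sqrt 3 / 2 : ℝ) : ℂ) • (1 : Matrix ι ι ℂ)) * B) < 1 / 4 * fn B := by
  rw [sub_smul_eq_sum hN hU]
  refine fn_smul_sum_lt hN hU hUu _ _ (fun j hj h0 => ?_) hB
  rw [normSq_sub_real (normSq_ev hN j)]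
  have h1 := hnear j hj h0
  have h2 := sqrt3_sq
  have h3 : (0 : ℝ) < Real.sqrt 3 := Real.sqrt_pos.2 (by norm_num)
  nlinarith

lemma near_sub_one_le (hN : N ≠ 0) (hU : U ^ N = 1) (hUu : Uᴴ * U = 1) (hnear : Near U N)
    (B : Matrix ι ι ℂ) :
    fn ((U - 1) * B) ≤ (2 - Real.sqrt 3) * fn B := by
  have h0 : U - 1 = U - ((1 : ℝ) : ℂ) • (1 : Matrix ι ι ℂ) := by simp
  rw [h0, sub_smul_eq_sum hN hU]
  refine fn_smul_sum_le hN hU hUu _ _ (fun j hj h0 => ?_) B
  rw [normSq_sub_real (normSq_ev hN j)]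
  have h1 := hnear j hj h0
  linarith

lemma near_sub_one_lt (hN : N ≠ 0) (hU : U ^ N = 1) (hUu : Uᴴ * U = 1) (hnear : Near U N)
    {B : Matrix ι ι ℂ} (hB : B ≠ 0) :
    fn ((U - 1) * B) < (2 - Real.sqrt 3) * fn B := by
  have h0 : U - 1 = U - ((1 : ℝ) : ℂ) • (1 : Matrix ι ι ℂ) := by simp
  rw [h0, sub_smul_eq_sum hN hU]
  refine fn_smul_sum_lt hN hU hUu _ _ (fun j hj h0 => ?_) hB
  rw [normSq_sub_real (normSq_ev hN j)]
  have h1 := hnear j hj h0
  linarith

lemma near_re_trace_pos (hN : N ≠ 0) (hU : U ^ N = 1) (hUu : Uᴴ * U = 1) (hnear : Near U N)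
    {B : Matrix ι ι ℂ} (hB : B ≠ 0) : 0 < (Bᴴ * U * B).trace.re := by
  rw [re_trace_conj hN hU hUu]
  have hpos : 0 < ∑ j ∈ Finset.range N, fn (proj U N j * B) := by
    rw [← fn_sum_proj hN hU hUu B]; exact fn_pos hB
  obtain ⟨j₀, hj₀, hj₀pos⟩ := Finset.exists_lt_of_sum_lt (s := Finset.range N)
    (f := fun _ => (0 : ℝ)) (g := fun j => fn (proj U N j * B)) (by simpa using hpos)
  have h3 : (0 : ℝ) < Real.sqrt 3 := Real.sqrt_pos.2 (by norm_num)
  refine Finset.sum_pos' (fun j hj => ?_) ⟨j₀, hj₀, ?_⟩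
  · by_cases h0 : proj U N j = 0
    · rw [h0, Matrix.zero_mul]
      have : fn (0 : Matrix ι ι ℂ) = 0 := fn_eq_zero.2 rfl
      rw [this, mul_zero]
    · have := hnear j (Finset.mem_range.1 hj) h0
      exact mul_nonneg (by linarith) (fn_nonneg _)
  · have h0 : proj U N j₀ ≠ 0 := by
      intro h0
      rw [h0, Matrix.zero_mul] at hj₀pos
      have : fn (0 : Matrix ι ι ℂ) = 0 := fn_eq_zero.2 rfl
      rw [this] at hj₀pos
      exact lt_irrefl _ hj₀pos
    have := hnear j₀ (Finset.mem_range.1 hj₀) h0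
    exact mul_pos (by linarith) hj₀pos

lemma conjTranspose_sub_smul_eq_sum (hN : N ≠ 0) (hU : U ^ N = 1) (hUu : Uᴴ * U = 1) (a : ℂ) :
    (U - a • (1 : Matrix ι ι ℂ))ᴴ = ∑ j ∈ Finset.range N, star (ev N j - a) • proj U N j := by
  rw [sub_smul_eq_sum hN hU, Matrix.conjTranspose_sum]
  refine Finset.sum_congr rfl fun j _ => ?_
  rw [Matrix.conjTranspose_smul, proj_herm hN hU hUu]

lemma near_mul_sub_le (hN : N ≠ 0) (hU : U ^ N = 1) (hUu : Uᴴ * U = 1) (hnear : Near U N)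
    (B : Matrix ι ι ℂ) :
    fn (B * (U - ((Real.sqrt 3 / 2 : ℝ) : ℂ) • (1 : Matrix ι ι ℂ))) ≤ 1 / 4 * fn B := by
  rw [← fn_conjTranspose, Matrix.conjTranspose_mul, conjTranspose_sub_smul_eq_sum hN hU hUu,
    ← fn_conjTranspose B]
  refine fn_smul_sum_le hN hU hUu _ _ (fun j hj h0 => ?_) Bᴴ
  have hs : Complex.normSq (star (ev N j - ((Real.sqrt 3 / 2 : ℝ) : ℂ)))
      = Complex.normSq (ev N j - ((Real.sqrt 3 / 2 : ℝ) : ℂ)) := Complex.normSq_conj _
  rw [hs, normSq_sub_real (normSq_ev hN j)]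
  have h1 := hnear j hj h0
  have h2 := sqrt3_sq
  have h3 : (0 : ℝ) < Real.sqrt 3 := Real.sqrt_pos.2 (by norm_num)
  nlinarith

/-- Commutators with an element near the identity shrink the distance to the identity. -/
lemma near_comm_lt (hN : N ≠ 0) (hU : U ^ N = 1) (hUu : Uᴴ * U = 1) (hnear : Near U N)
    {Z : Matrix ι ι ℂ} (hZ : Z ≠ 1) : fn (U * Z - Z * U) < fn (Z - 1) := by
  set a : ℂ := ((Real.sqrt 3 / 2 : ℝ) : ℂ) with ha
  have h1 : U * Z - Z * U = (U - a • (1 : Matrix ι ι ℂ)) * (Z - 1) - (Z - 1) * (U - a • (1 : Matrix ι ι ℂ)) := by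
    simp only [Matrix.sub_mul, Matrix.mul_sub, Matrix.smul_mul, Matrix.mul_smul, Matrix.one_mul,
      Matrix.mul_one, smul_sub]
    abel
  have hZ' : Z - 1 ≠ 0 := sub_ne_zero.2 hZ
  have h2 := fn_sub_le ((U - a • (1 : Matrix ι ι ℂ)) * (Z - 1)) ((Z - 1) * (U - a • (1 : Matrix ι ι ℂ)))
  have h3 := near_sub_lt hN hU hUu hnear hZ'
  have h4 := near_mul_sub_le hN hU hUu hnear (Z - 1)
  rw [h1]
  linarith

end Near

/-- The commutator of two elements near the identity is near the identity. -/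
lemma near_commutator {X Y W : Matrix ι ι ℂ} {N : ℕ} (hN : N ≠ 0)
    (hX : X ^ N = 1) (hXu : Xᴴ * X = 1) (hXn : Near X N)
    (hY : Y ^ N = 1) (hYu : Yᴴ * Y = 1) (hYn : Near Y N)
    (hW : W ^ N = 1) (hWXY : Y * X * (W - 1) = X * Y - Y * X) : Near W N := by
  intro j hj hQ
  set Q := proj W N j with hQdef
  set a : ℂ := ((Real.sqrt 3 / 2 : ℝ) : ℂ) with ha
  have hQpos : 0 < fn Q := fn_pos hQ
  have h1 : (W - 1) * Q = (ev N j - 1) • Q := by
    rw [Matrix.sub_mul, Matrix.one_mul, mul_proj hN hW, sub_smul, one_smul]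
  have hYXu : (Y * X)ᴴ * (Y * X) = 1 := by
    rw [Matrix.conjTranspose_mul]
    calc Xᴴ * Yᴴ * (Y * X) = Xᴴ * (Yᴴ * Y) * X := by simp only [Matrix.mul_assoc]
      _ = 1 := by rw [hYu, Matrix.mul_one, hXu]
  have h2 : fn ((W - 1) * Q) = fn ((X * Y - Y * X) * Q) := by
    rw [← fn_unitary_mul (Y * X) _ hYXu, ← Matrix.mul_assoc, hWXY]
  have h3 : (X * Y - Y * X) * Q
      = (X - a • (1 : Matrix ι ι ℂ)) * ((Y - 1) * Q) - (Y - 1) * ((X - a • (1 : Matrix ι ι ℂ)) * Q) := by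
    simp only [Matrix.sub_mul, Matrix.mul_sub, Matrix.smul_mul, Matrix.mul_smul, Matrix.one_mul,
      Matrix.mul_assoc, smul_sub]
    abel
  have h4 := fn_sub_le ((X - a • (1 : Matrix ι ι ℂ)) * ((Y - 1) * Q))
    ((Y - 1) * ((X - a • (1 : Matrix ι ι ℂ)) * Q))
  have h5 := near_sub_le hN hX hXu hXn ((Y - 1) * Q)
  have h6 := near_sub_one_lt hN hY hYu hYn hQ
  have h7 := near_sub_one_le hN hY hYu hYn ((X - a • (1 : Matrix ι ι ℂ)) * Q)
  have h8 := near_sub_le hN hX hXu hXn Q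
  have hs3 : (0 : ℝ) < 2 - Real.sqrt 3 := by
    have h2 := sqrt3_sq
    have h3 : (0 : ℝ) < Real.sqrt 3 := Real.sqrt_pos.2 (by norm_num)
    nlinarith
  have h9 : fn ((W - 1) * Q) < (2 - Real.sqrt 3) * fn Q := by
    rw [h2, h3]
    have h10 : (2 - Real.sqrt 3) * fn ((X - a • (1 : Matrix ι ι ℂ)) * Q)
        ≤ (2 - Real.sqrt 3) * (1 / 4 * fn Q) := mul_le_mul_of_nonneg_left h8 hs3.le
    linarith
  rw [h1, fn_smul] at h9
  have h10 : Complex.normSq (ev N j - 1) < 2 - Real.sqrt 3 := lt_of_mul_lt_mul_right h9 hQpos.le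
  have h11 := normSq_sub_real (normSq_ev hN j) 1
  rw [Complex.ofReal_one] at h11
  rw [h11] at h10
  linarith

lemma proj_conj {U V V' : Matrix ι ι ℂ} (h1 : V' * V = 1) (h2 : V * V' = 1) (N j : ℕ) :
    proj (V' * U * V) N j = V' * proj U N j * V := by
  have hpow : ∀ k : ℕ, ((ev N j)⁻¹ • (V' * U * V)) ^ k = V' * ((ev N j)⁻¹ • U) ^ k * V := by
    intro k
    induction k with
    | zero => simp [h1]
    | succ k ih =>
      rw [pow_succ, ih, pow_succ]
      calc V' * ((ev N j)⁻¹ • U) ^ k * V * ((ev N j)⁻¹ • (V' * U * V))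
          = V' * ((ev N j)⁻¹ • U) ^ k * (V * V') * ((ev N j)⁻¹ • U) * V := by
            simp only [Matrix.mul_assoc, Matrix.mul_smul, Matrix.smul_mul]
        _ = _ := by rw [h2, Matrix.mul_one]; simp only [Matrix.mul_assoc]
  unfold proj
  simp_rw [hpow]
  rw [← Finset.sum_mul, ← Finset.mul_sum, Matrix.mul_smul, Matrix.smul_mul]

lemma proj_commute {X X' : Matrix ι ι ℂ} (h : Commute X X') (N i j : ℕ) :
    Commute (proj X N i) (proj X' N j) := by
  unfold proj
  refine Commute.smul_left (Commute.smul_right ?_ _) _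
  refine Commute.sum_left _ _ _ fun k _ => Commute.sum_right _ _ _ fun l _ => ?_
  exact ((h.smul_left _).smul_right _).pow_pow k l

/-- If `X` commutes with its conjugate by an element `Y` near the identity, then `X` commutes
with `Y`. -/
lemma comm_of_near {X Y : Matrix ι ι ℂ} {N : ℕ} (hN : N ≠ 0)
    (hX : X ^ N = 1) (hXu : Xᴴ * X = 1)
    (hY : Y ^ N = 1) (hYu : Yᴴ * Y = 1) (hYn : Near Y N)
    (hc : Commute X (Yᴴ * X * Y)) : X * Y = Y * X := by
  have hYu' : Y * Yᴴ = 1 := by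
    exact mul_eq_one_comm.1 hYu
  have hP' : ∀ j, proj (Yᴴ * X * Y) N j = Yᴴ * proj X N j * Y := proj_conj hYu hYu' N
  have hcomm : ∀ i j, proj X N i * (Yᴴ * proj X N j * Y) = (Yᴴ * proj X N j * Y) * proj X N i := by
    intro i j
    have := proj_commute hc N i j
    rw [hP'] at this
    exact this
  have hzero : ∀ i < N, ∀ j < N, i ≠ j → proj X N i * (Yᴴ * proj X N j * Y) = 0 := by
    intro i hi j hj hij
    by_contra hQ
    set Q := proj X N i * (Yᴴ * proj X N j * Y) with hQdef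
    have hpos := near_re_trace_pos hN hY hYu hYn hQ
    have hYQ : Y * Q = proj X N j * Y * proj X N i := by
      rw [hQdef, hcomm]
      calc Y * (Yᴴ * proj X N j * Y * proj X N i) = (Y * Yᴴ) * proj X N j * Y * proj X N i := by
            simp only [Matrix.mul_assoc]
        _ = _ := by rw [hYu', Matrix.one_mul]
    have hQ1 : proj X N i * Q = Q := by
      rw [hQdef, ← Matrix.mul_assoc, proj_idem hN hX hi]
    have hQ2 : Qᴴ = Qᴴ * proj X N i := by
      conv_lhs => rw [← hQ1]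
      rw [Matrix.conjTranspose_mul, proj_herm hN hX hXu]
    have hz : Qᴴ * Y * Q = 0 := by
      rw [Matrix.mul_assoc, hYQ, hQ2]
      calc Qᴴ * proj X N i * (proj X N j * Y * proj X N i)
          = Qᴴ * (proj X N i * proj X N j) * Y * proj X N i := by simp only [Matrix.mul_assoc]
        _ = 0 := by rw [proj_orth hN hX hi hj hij]; simp
    rw [hz] at hpos
    simp at hpos
  have hsum' : ∑ j ∈ Finset.range N, Yᴴ * proj X N j * Y = 1 := by
    rw [← Finset.sum_mul, ← Finset.mul_sum, sum_proj hN, Matrix.mul_one, hYu]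
  have hPeq : ∀ i < N, proj X N i = Yᴴ * proj X N i * Y := by
    intro i hi
    have h1 : proj X N i = proj X N i * (Yᴴ * proj X N i * Y) := by
      conv_lhs => rw [← Matrix.mul_one (proj X N i), ← hsum', Finset.mul_sum]
      rw [Finset.sum_eq_single i]
      · intro j hj hji
        exact hzero i hi j (Finset.mem_range.1 hj) (Ne.symm hji)
      · intro h
        exact absurd (Finset.mem_range.2 hi) h
    have h2 : Yᴴ * proj X N i * Y = proj X N i * (Yᴴ * proj X N i * Y) := by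
      conv_lhs => rw [← Matrix.one_mul (Yᴴ * proj X N i * Y), ← sum_proj hN X, Finset.sum_mul]
      rw [Finset.sum_eq_single i]
      · intro j hj hji
        exact hzero j (Finset.mem_range.1 hj) i hi hji
      · intro h
        exact absurd (Finset.mem_range.2 hi) h
    rw [h2]
    exact h1
  have hYP : ∀ i < N, Y * proj X N i = proj X N i * Y := by
    intro i hi
    conv_lhs => rw [hPeq i hi]
    calc Y * (Yᴴ * proj X N i * Y) = (Y * Yᴴ) * proj X N i * Y := by simp only [Matrix.mul_assoc]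
      _ = _ := by rw [hYu', Matrix.one_mul]
  conv_lhs => rw [self_eq_sum hN hX]
  conv_rhs => rw [self_eq_sum hN hX]
  rw [Finset.sum_mul, Finset.mul_sum]
  refine Finset.sum_congr rfl fun i hi => ?_
  rw [Matrix.smul_mul, Matrix.mul_smul, hYP i (Finset.mem_range.1 hi)]

end Cfsg.Agent.Lib.Helper74.Jordan
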