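import Mathlib
import Cfsg.Agent.Lib.Helper74.JordanA

/-!
# The Frobenius–Jordan abelian normal subgroup of a finite unitary matrix group
-/

set_option autoImplicit false

open scoped Matrix ComplexConjugate ComplexOrder MatrixOrder

namespace Cfsg.Agent.Lib.Helper74.Jordan

section Unitarize

variable {G : Type*} [Group G] [Fintype G] {n : ℕ}

/-- Weyl's unitary trick: a matrix representation of a finite group is conjugate to a unitary
one; in particular there is a unitary representation with the same traces. -/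
theorem exists_unitary_hom (M : G →* Matrix (Fin n) (Fin n) ℂ) :
    ∃ U : G →* Matrix (Fin n) (Fin n) ℂ,
      (∀ g, (U g)ᴴ * U g = 1) ∧ ∀ g, (U g).trace = (M g).trace := by
  classical
  set P : Matrix (Fin n) (Fin n) ℂ := ∑ g : G, (M g)ᴴ * M g with hP
  have hinv : ∀ h, (M h)ᴴ * P * M h = P := by
    intro h
    rw [hP, Finset.mul_sum, Finset.sum_mul]
    refine Fintype.sum_equiv (Equiv.mulRight h) _ _ ?_
    intro g
    simp [map_mul, Matrix.conjTranspose_mul, Matrix.mul_assoc]
  have hpd : P.PosDef := by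
    rw [hP, ← Finset.add_sum_erase Finset.univ _ (Finset.mem_univ (1 : G))]
    refine Matrix.PosDef.add_posSemidef ?_ ?_
    · rw [map_one]; simpa using Matrix.PosDef.one
    · exact Matrix.posSemidef_sum _ (fun g _ => Matrix.posSemidef_conjTranspose_mul_self _)
  have h0 : (0 : Matrix (Fin n) (Fin n) ℂ) ≤ P := hpd.posSemidef.nonneg
  obtain ⟨C, hCh, hCC, hCu⟩ : ∃ C : Matrix (Fin n) (Fin n) ℂ, Cᴴ = C ∧ C * C = P ∧ IsUnit C.det := by
    refine ⟨CFC.sqrt P, ?_, ?_, ?_⟩
    · exact (Matrix.nonneg_iff_posSemidef.1 (CFC.sqrt_nonneg P)).isHermitian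
    · exact CFC.sqrt_mul_sqrt_self P h0
    · have h1 : CFC.sqrt P * CFC.sqrt P = P := CFC.sqrt_mul_sqrt_self P h0
      have h2 : (CFC.sqrt P).det * (CFC.sqrt P).det = P.det := by
        rw [← Matrix.det_mul, h1]
      have h3 : P.det ≠ 0 := ne_of_gt hpd.det_pos
      rw [isUnit_iff_ne_zero]
      intro h
      rw [h, zero_mul] at h2
      exact h3 h2.symm
  have hC1 : C * C⁻¹ = 1 := Matrix.mul_nonsing_inv C hCu
  have hC2 : C⁻¹ * C = 1 := Matrix.nonsing_inv_mul C hCu
  refine ⟨{ toFun := fun g => C * M g * C⁻¹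
            map_one' := by rw [map_one, Matrix.mul_one, hC1]
            map_mul' := fun g h => by
              rw [map_mul]
              calc C * (M g * M h) * C⁻¹ = C * M g * 1 * M h * C⁻¹ := by
                    simp only [Matrix.mul_assoc, Matrix.one_mul]
                _ = C * M g * C⁻¹ * (C * M h * C⁻¹) := by
                    rw [← hC2]; simp only [Matrix.mul_assoc] }, ?_, ?_⟩
  · intro g
    change (C * M g * C⁻¹)ᴴ * (C * M g * C⁻¹) = 1
    rw [Matrix.conjTranspose_mul, Matrix.conjTranspose_mul, hCh]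
    calc (C⁻¹)ᴴ * ((M g)ᴴ * C) * (C * M g * C⁻¹)
        = (C⁻¹)ᴴ * ((M g)ᴴ * (C * C) * M g) * C⁻¹ := by simp only [Matrix.mul_assoc]
      _ = (C⁻¹)ᴴ * (Cᴴ * C) * C⁻¹ := by rw [hCC, hinv g, hCh, hCC]
      _ = ((C⁻¹)ᴴ * Cᴴ) * (C * C⁻¹) := by simp only [Matrix.mul_assoc]
      _ = 1 := by rw [← Matrix.conjTranspose_mul, hC1, Matrix.conjTranspose_one, Matrix.one_mul]
  · intro g
    change (C * M g * C⁻¹).trace = (M g).trace
    rw [Matrix.trace_mul_comm, ← Matrix.mul_assoc, hC2, Matrix.one_mul]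

end Unitarize

section Comm

variable {G : Type*} [Group G] [Fintype G] {ι : Type*} [Fintype ι] [DecidableEq ι]

/-- The set of group elements all of whose eigenvalues lie within 30 degrees of `1`. -/
def nearSet (U : G →* Matrix ι ι ℂ) : Set G := {g | Near (U g) (Nat.card G)}

variable (U : G →* Matrix ι ι ℂ)

lemma hom_pow_card (g : G) : U g ^ Nat.card G = 1 := by
  rw [← map_pow, pow_card_eq_one', map_one]

lemma card_ne_zero' : Nat.card G ≠ 0 := Nat.card_pos.ne'

lemma nearSet_conj {g : G} (hg : g ∈ nearSet U) (h : G) : h * g * h⁻¹ ∈ nearSet U := by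
  intro j hj hne
  apply hg j hj
  intro h0
  apply hne
  have h1 : U h * U h⁻¹ = 1 := by rw [← map_mul, mul_inv_cancel, map_one]
  have h2 : U h⁻¹ * U h = 1 := by rw [← map_mul, inv_mul_cancel, map_one]
  rw [map_mul, map_mul, proj_conj h1 h2, h0, Matrix.mul_zero, Matrix.zero_mul]

theorem nearSet_comm (hUu : ∀ g, (U g)ᴴ * U g = 1) (hinj : ∀ g, U g = 1 → g = 1) :
    ∀ x ∈ nearSet U, ∀ y ∈ nearSet U, x * y = y * x := by
  classical
  by_contra hcon
  push Not at hcon
  have hN : Nat.card G ≠ 0 := card_ne_zero'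
  let bad : Finset (G × G) := Finset.univ.filter
    (fun p => p.1 ∈ nearSet U ∧ p.2 ∈ nearSet U ∧ p.1 * p.2 ≠ p.2 * p.1)
  have hne : bad.Nonempty := by
    obtain ⟨x, hx, y, hy, hxy⟩ := hcon
    exact ⟨(x, y), by simp [bad, hx, hy, hxy]⟩
  obtain ⟨⟨x, y⟩, hmem, hmin⟩ := Finset.exists_min_image bad (fun p => fn (U p.2 - 1)) hne
  simp only [bad, Finset.mem_filter, Finset.mem_univ, true_and] at hmem
  obtain ⟨hx, hy, hxy⟩ := hmem
  set z := x⁻¹ * y⁻¹ * x * y with hz
  have hyxz : y * x * z = x * y := by rw [hz]; group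
  have hW : U y * U x * (U z - 1) = U x * U y - U y * U x := by
    rw [Matrix.mul_sub, Matrix.mul_one, ← map_mul, ← map_mul, hyxz, map_mul, map_mul]
  have hzn : z ∈ nearSet U :=
    near_commutator hN (hom_pow_card U x) (hUu x) hx (hom_pow_card U y) (hUu y) hy
      (hom_pow_card U z) hW
  have hy1 : U y ≠ 1 := by
    intro h
    have := hinj y h
    rw [this] at hxy
    simp at hxy
  have hYXu : (U y * U x)ᴴ * (U y * U x) = 1 := by
    rw [Matrix.conjTranspose_mul]
    calc (U x)ᴴ * (U y)ᴴ * (U y * U x) = (U x)ᴴ * ((U y)ᴴ * U y) * U x := by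
          simp only [Matrix.mul_assoc]
      _ = 1 := by rw [hUu y, Matrix.mul_one, hUu x]
  have hlt : fn (U z - 1) < fn (U y - 1) := by
    rw [← fn_unitary_mul (U y * U x) _ hYXu, hW]
    exact near_comm_lt hN (hom_pow_card U x) (hUu x) hx hy1
  have hxz : x * z = z * x := by
    by_contra hxz
    have hmem' : (x, z) ∈ bad := by simp [bad, hx, hzn, hxz]
    have := hmin (x, z) hmem'
    simp only at this
    linarith
  have hyinv : (U y)ᴴ = U y⁻¹ := by
    calc (U y)ᴴ = (U y)ᴴ * (U y * U y⁻¹) := by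
          rw [← map_mul, mul_inv_cancel, map_one, Matrix.mul_one]
      _ = ((U y)ᴴ * U y) * U y⁻¹ := by rw [Matrix.mul_assoc]
      _ = U y⁻¹ := by rw [hUu y, Matrix.one_mul]
  have hc : Commute (U x) ((U y)ᴴ * U x * U y) := by
    rw [hyinv, ← map_mul, ← map_mul]
    have h1 : x * (y⁻¹ * x * y) = (y⁻¹ * x * y) * x := by
      have h2 : y⁻¹ * x * y = x * z := by rw [hz]; group
      rw [h2, mul_assoc x z x, ← hxz, ← mul_assoc]
    change U x * U (y⁻¹ * x * y) = U (y⁻¹ * x * y) * U x
    rw [← map_mul, ← map_mul, h1]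
  have hfin := comm_of_near hN (hom_pow_card U x) (hUu x) (hom_pow_card U y) (hUu y) hy hc
  apply hxy
  have h3 : U (x * y * (y * x)⁻¹) = 1 := by
    rw [map_mul, map_mul, hfin, ← map_mul, ← map_mul, mul_inv_cancel, map_one]
  have h4 := hinj _ h3
  exact mul_inv_eq_one.1 h4

/-- The Frobenius–Jordan subgroup generated by the elements near the identity. -/
def jordanSubgroup : Subgroup G := Subgroup.closure (nearSet U)

lemma jordanSubgroup_normal : (jordanSubgroup U).Normal := by
  refine ⟨fun a ha g => ?_⟩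
  unfold jordanSubgroup at ha ⊢
  induction ha using Subgroup.closure_induction with
  | mem x hx => exact Subgroup.subset_closure (nearSet_conj U hx g)
  | one => simp
  | mul x y _ _ hx hy =>
    have : g * (x * y) * g⁻¹ = (g * x * g⁻¹) * (g * y * g⁻¹) := by group
    rw [this]
    exact Subgroup.mul_mem _ hx hy
  | inv x _ hx =>
    have : g * x⁻¹ * g⁻¹ = (g * x * g⁻¹)⁻¹ := by group
    rw [this]
    exact Subgroup.inv_mem _ hx

lemma jordanSubgroup_comm (hUu : ∀ g, (U g)ᴴ * U g = 1) (hinj : ∀ g, U g = 1 → g = 1) :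
    ∀ x ∈ jordanSubgroup U, ∀ y ∈ jordanSubgroup U, x * y = y * x := by
  have hS := nearSet_comm U hUu hinj
  have h1 : jordanSubgroup U ≤ Subgroup.centralizer (nearSet U) := by
    unfold jordanSubgroup
    rw [Subgroup.closure_le]
    intro s hs
    rw [SetLike.mem_coe, Subgroup.mem_centralizer_iff]
    intro t ht
    exact hS t ht s hs
  have h2 : jordanSubgroup U ≤ Subgroup.centralizer (jordanSubgroup U : Set G) := by
    unfold jordanSubgroup
    rw [Subgroup.closure_le]
    intro s hs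
    rw [SetLike.mem_coe, Subgroup.mem_centralizer_iff]
    intro a ha
    have := h1 ha
    rw [Subgroup.mem_centralizer_iff] at this
    exact (this s hs).symm
  intro x hx y hy
  have := h2 hy
  rw [Subgroup.mem_centralizer_iff] at this
  exact this x hx

lemma trace_proj (g : G) (j : ℕ) :
    (proj (U g) (Nat.card G) j).trace = (Nat.card G : ℂ)⁻¹ *
      ∑ l ∈ Finset.range (Nat.card G), ((ev (Nat.card G) j)⁻¹) ^ l * (U (g ^ l)).trace := by
  unfold proj
  rw [Matrix.trace_smul, Matrix.trace_sum, smul_eq_mul]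
  congr 1
  refine Finset.sum_congr rfl fun l _ => ?_
  rw [smul_pow, Matrix.trace_smul, smul_eq_mul, map_pow]

lemma trace_proj_pos (hUu : ∀ g, (U g)ᴴ * U g = 1) (g : G) {j : ℕ} (hj : j < Nat.card G)
    (h : proj (U g) (Nat.card G) j ≠ 0) : (proj (U g) (Nat.card G) j).trace ≠ 0 := by
  have hN : Nat.card G ≠ 0 := card_ne_zero'
  have h1 : (proj (U g) (Nat.card G) j).trace = (fn (proj (U g) (Nat.card G) j) : ℂ) := by
    rw [← trace_conjTranspose_mul_self, proj_herm hN (hom_pow_card U g) (hUu g),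
      proj_idem hN (hom_pow_card U g) hj]
  rw [h1]
  exact_mod_cast (fn_pos h).ne'

end Comm

end Cfsg.Agent.Lib.Helper74.Jordan
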