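import Cfsg.Agent.Lib.Helper74.FHB1pAux
import Cfsg.Agent.Lib.Helper76.FHB1

/-!
# Feit–Higman (S1142), work package B1': `exists_nat_mul`
-/

set_option autoImplicit false

namespace Cfsg.Agent.Lib.Lead.FH

open Matrix
open scoped Kronecker

/-- **WP-B1'** (Feit–Higman, S1142): the multiplicity `2 |Ω| / κ` is a natural number. -/
theorem exists_nat_mul {Ω : Type*} [Fintype Ω] [DecidableEq Ω] {m a c : ℕ} {A C : Matrix Ω Ω ℝ}
    (h : FHData Ω m a c A C) {RA RC : Matrix (Fin 2) (Fin 2) ℝ}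
    (hR : HeckePair m (a : ℝ) (c : ℝ) RA RC) {κ : ℝ}
    (hκ : psi m (a : ℝ) (c : ℝ) RA RC = κ • (1 : Matrix (Fin 2) (Fin 2) ℝ)) :
    ∃ n : ℕ, (n : ℝ) * κ = 2 * Fintype.card Ω := by
  have ha0 : (a : ℝ) ≠ 0 := by
    have := h.two_le_a; positivity
  have hc0 : (c : ℝ) ≠ 0 := by
    have := h.two_le_c; positivity
  exact b1p_exists_nat_mul_of_sq h hκ
    (cas_sq ha0 hc0 (wt_symm_of h.odd) (b1p_pair_left h.pair) (b1p_pair_right hR)
      (b1p_commute A RA) (b1p_commute A RC) (b1p_commute C RA) (b1p_commute C RC))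

end Cfsg.Agent.Lib.Lead.FH
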