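import Cfsg.Agent.Lib.Lead.FH.Defs
import Cfsg.Agent.Lib.Lead.FH.Wt

/-!
# Feit–Higman (S1142), work package B1': multiplicity from the Casimir element

Auxiliary part (everything except the call to `cas_sq` of package B1).
-/

set_option autoImplicit false

namespace Cfsg.Agent.Lib.Lead.FH

open Matrix
open scoped Kronecker

section B1p

variable {Ω : Type*} [Fintype Ω] [DecidableEq Ω]

theorem b1p_alt_kron_left (X Y : Matrix Ω Ω ℝ) (k : ℕ) :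
    alt (X ⊗ₖ (1 : Matrix (Fin 2) (Fin 2) ℝ)) (Y ⊗ₖ (1 : Matrix (Fin 2) (Fin 2) ℝ)) k
      = alt X Y k ⊗ₖ (1 : Matrix (Fin 2) (Fin 2) ℝ) := by
  induction k generalizing X Y with
  | zero =>
    show (1 : Matrix (Ω × Fin 2) (Ω × Fin 2) ℝ)
      = (1 : Matrix Ω Ω ℝ) ⊗ₖ (1 : Matrix (Fin 2) (Fin 2) ℝ)
    exact Matrix.one_kronecker_one.symm
  | succ k ih =>
    show X ⊗ₖ (1 : Matrix (Fin 2) (Fin 2) ℝ) * alt (Y ⊗ₖ 1) (X ⊗ₖ 1) k = (X * alt Y X k) ⊗ₖ 1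
    rw [ih, ← Matrix.mul_kronecker_mul, mul_one]

theorem b1p_alt_kron_right (X Y : Matrix (Fin 2) (Fin 2) ℝ) (k : ℕ) :
    alt ((1 : Matrix Ω Ω ℝ) ⊗ₖ X) ((1 : Matrix Ω Ω ℝ) ⊗ₖ Y) k
      = (1 : Matrix Ω Ω ℝ) ⊗ₖ alt X Y k := by
  induction k generalizing X Y with
  | zero =>
    show (1 : Matrix (Ω × Fin 2) (Ω × Fin 2) ℝ)
      = (1 : Matrix Ω Ω ℝ) ⊗ₖ (1 : Matrix (Fin 2) (Fin 2) ℝ)
    exact Matrix.one_kronecker_one.symm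
  | succ k ih =>
    show (1 : Matrix Ω Ω ℝ) ⊗ₖ X * alt (1 ⊗ₖ Y) (1 ⊗ₖ X) k = 1 ⊗ₖ (X * alt Y X k)
    rw [ih, ← Matrix.mul_kronecker_mul, mul_one]

theorem b1p_ralt_kron_right (X Y : Matrix (Fin 2) (Fin 2) ℝ) (k : ℕ) :
    ralt ((1 : Matrix Ω Ω ℝ) ⊗ₖ X) ((1 : Matrix Ω Ω ℝ) ⊗ₖ Y) k
      = (1 : Matrix Ω Ω ℝ) ⊗ₖ ralt X Y k := by
  induction k generalizing X Y with
  | zero =>
    show (1 : Matrix (Ω × Fin 2) (Ω × Fin 2) ℝ)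
      = (1 : Matrix Ω Ω ℝ) ⊗ₖ (1 : Matrix (Fin 2) (Fin 2) ℝ)
    exact Matrix.one_kronecker_one.symm
  | succ k ih =>
    show ralt ((1 : Matrix Ω Ω ℝ) ⊗ₖ Y) (1 ⊗ₖ X) k * (1 ⊗ₖ X) = 1 ⊗ₖ (ralt Y X k * X)
    rw [ih, ← Matrix.mul_kronecker_mul, mul_one]

theorem b1p_pair_left {m : ℕ} {a c : ℝ} {A C : Matrix Ω Ω ℝ} (h : HeckePair m a c A C) :
    HeckePair m a c (A ⊗ₖ (1 : Matrix (Fin 2) (Fin 2) ℝ)) (C ⊗ₖ (1 : Matrix (Fin 2) (Fin 2) ℝ)) where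
  sqA := by
    rw [← Matrix.mul_kronecker_mul, mul_one, h.sqA, Matrix.add_kronecker, Matrix.smul_kronecker,
      Matrix.smul_kronecker, Matrix.one_kronecker_one]
  sqC := by
    rw [← Matrix.mul_kronecker_mul, mul_one, h.sqC, Matrix.add_kronecker, Matrix.smul_kronecker,
      Matrix.smul_kronecker, Matrix.one_kronecker_one]
  braid := by rw [b1p_alt_kron_left, b1p_alt_kron_left, h.braid]

theorem b1p_pair_right {m : ℕ} {a c : ℝ} {RA RC : Matrix (Fin 2) (Fin 2) ℝ}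
    (h : HeckePair m a c RA RC) :
    HeckePair m a c ((1 : Matrix Ω Ω ℝ) ⊗ₖ RA) ((1 : Matrix Ω Ω ℝ) ⊗ₖ RC) where
  sqA := by
    rw [← Matrix.mul_kronecker_mul, mul_one, h.sqA, Matrix.kronecker_add, Matrix.kronecker_smul,
      Matrix.kronecker_smul, Matrix.one_kronecker_one]
  sqC := by
    rw [← Matrix.mul_kronecker_mul, mul_one, h.sqC, Matrix.kronecker_add, Matrix.kronecker_smul,
      Matrix.kronecker_smul, Matrix.one_kronecker_one]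
  braid := by rw [b1p_alt_kron_right, b1p_alt_kron_right, h.braid]

theorem b1p_commute (X : Matrix Ω Ω ℝ) (Y : Matrix (Fin 2) (Fin 2) ℝ) :
    Commute (X ⊗ₖ (1 : Matrix (Fin 2) (Fin 2) ℝ)) ((1 : Matrix Ω Ω ℝ) ⊗ₖ Y) := by
  show X ⊗ₖ (1 : Matrix (Fin 2) (Fin 2) ℝ) * ((1 : Matrix Ω Ω ℝ) ⊗ₖ Y)
    = (1 : Matrix Ω Ω ℝ) ⊗ₖ Y * (X ⊗ₖ (1 : Matrix (Fin 2) (Fin 2) ℝ))
  rw [← Matrix.mul_kronecker_mul, ← Matrix.mul_kronecker_mul, mul_one, one_mul, mul_one, one_mul]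

omit [Fintype Ω] in
theorem b1p_one_kron_sum {ι : Type*} (s : Finset ι) (f : ι → Matrix (Fin 2) (Fin 2) ℝ) :
    (1 : Matrix Ω Ω ℝ) ⊗ₖ (∑ k ∈ s, f k) = ∑ k ∈ s, (1 : Matrix Ω Ω ℝ) ⊗ₖ f k := by
  classical
  induction s using Finset.induction_on with
  | empty => simp
  | insert x s hx ih => rw [Finset.sum_insert hx, Finset.sum_insert hx, Matrix.kronecker_add, ih]

theorem b1p_psi_right (m : ℕ) (a c : ℝ) (RA RC : Matrix (Fin 2) (Fin 2) ℝ) :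
    psi m a c ((1 : Matrix Ω Ω ℝ) ⊗ₖ RA) ((1 : Matrix Ω Ω ℝ) ⊗ₖ RC)
      = (1 : Matrix Ω Ω ℝ) ⊗ₖ psi m a c RA RC := by
  unfold psi
  rw [b1p_one_kron_sum]
  refine Finset.sum_congr rfl fun k _ => ?_
  rw [b1p_alt_kron_right, b1p_ralt_kron_right, b1p_alt_kron_right, b1p_ralt_kron_right,
    ← Matrix.mul_kronecker_mul, ← Matrix.mul_kronecker_mul, mul_one, Matrix.kronecker_add,
    Matrix.kronecker_smul, Matrix.kronecker_smul]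

theorem b1p_trace_term (X : Matrix Ω Ω ℝ) (Y : Matrix (Fin 2) (Fin 2) ℝ) :
    Matrix.trace (X ⊗ₖ (1 : Matrix (Fin 2) (Fin 2) ℝ) * ((1 : Matrix Ω Ω ℝ) ⊗ₖ Y))
      = Matrix.trace X * Matrix.trace Y := by
  rw [← Matrix.mul_kronecker_mul, mul_one, one_mul, Matrix.trace_kronecker]

theorem b1p_trace_cas {m a c : ℕ} {A C : Matrix Ω Ω ℝ} (h : FHData Ω m a c A C)
    (RA RC : Matrix (Fin 2) (Fin 2) ℝ) :
    Matrix.trace (cas m (a : ℝ) (c : ℝ) (A ⊗ₖ (1 : Matrix (Fin 2) (Fin 2) ℝ))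
      (C ⊗ₖ (1 : Matrix (Fin 2) (Fin 2) ℝ))
      ((1 : Matrix Ω Ω ℝ) ⊗ₖ RA) ((1 : Matrix Ω Ω ℝ) ⊗ₖ RC)) = 2 * (Fintype.card Ω : ℝ) := by
  unfold cas
  rw [Matrix.trace_sum]
  have hterm : ∀ k ∈ Finset.range m,
      Matrix.trace ((wt (c : ℝ) a k)⁻¹ • (alt (C ⊗ₖ (1 : Matrix (Fin 2) (Fin 2) ℝ))
          (A ⊗ₖ (1 : Matrix (Fin 2) (Fin 2) ℝ)) k
          * alt ((1 : Matrix Ω Ω ℝ) ⊗ₖ RC) ((1 : Matrix Ω Ω ℝ) ⊗ₖ RA) k)
        + (wt (a : ℝ) c (k + 1))⁻¹ • (alt (A ⊗ₖ (1 : Matrix (Fin 2) (Fin 2) ℝ))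
          (C ⊗ₖ (1 : Matrix (Fin 2) (Fin 2) ℝ)) (k + 1)
          * alt ((1 : Matrix Ω Ω ℝ) ⊗ₖ RA) ((1 : Matrix Ω Ω ℝ) ⊗ₖ RC) (k + 1)))
      = if k = 0 then 2 * (Fintype.card Ω : ℝ) else 0 := by
    intro k hk
    have hkm : k < m := Finset.mem_range.mp hk
    rw [Matrix.trace_add, Matrix.trace_smul, Matrix.trace_smul, b1p_alt_kron_left,
      b1p_alt_kron_right, b1p_alt_kron_left, b1p_alt_kron_right, b1p_trace_term, b1p_trace_term,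
      h.trA (k + 1) (by omega) (by omega)]
    by_cases hk0 : k = 0
    · subst hk0
      show (1 : ℝ)⁻¹ • (Matrix.trace (1 : Matrix Ω Ω ℝ)
          * Matrix.trace (1 : Matrix (Fin 2) (Fin 2) ℝ))
        + (wt (a : ℝ) c (0 + 1))⁻¹ • (0 * Matrix.trace (alt RA RC (0 + 1)))
        = if 0 = 0 then 2 * (Fintype.card Ω : ℝ) else 0
      rw [Matrix.trace_one, Matrix.trace_one, if_pos rfl, zero_mul, smul_zero, add_zero,
        inv_one, one_smul, Fintype.card_fin]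
      push_cast
      ring
    · rw [h.trC k (by omega) (by omega), if_neg hk0]
      simp
  rw [Finset.sum_congr rfl hterm, Finset.sum_ite_eq']
  have : 0 ∈ Finset.range m := Finset.mem_range.mpr (by have := h.two_le_m; omega)
  rw [if_pos this]

theorem b1p_nat_of_sq {n : Type*} [Fintype n] [DecidableEq n] (T : Matrix n n ℝ) (κ t : ℝ)
    (hsq : T * T = κ • T) (htr : Matrix.trace T = t) (ht : t ≠ 0) :
    ∃ N : ℕ, (N : ℝ) * κ = t := by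
  by_cases hκ : κ = 0
  · exfalso
    have hnil : IsNilpotent T := ⟨2, by rw [pow_two, hsq, hκ, zero_smul]⟩
    have h0 := Matrix.isNilpotent_trace_of_isNilpotent hnil
    rw [htr] at h0
    exact ht (isNilpotent_iff_eq_zero.mp h0)
  · obtain ⟨E, hE⟩ : ∃ E : Matrix n n ℝ, E = κ⁻¹ • T := ⟨_, rfl⟩
    have hid : E * E = E := by
      rw [hE, Matrix.smul_mul, Matrix.mul_smul, hsq, smul_smul, smul_smul]
      congr 1
      field_simp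
    have hid' : IsIdempotentElem (Matrix.toLin' E) := by
      show Matrix.toLin' E * Matrix.toLin' E = Matrix.toLin' E
      rw [Module.End.mul_eq_comp, ← Matrix.toLin'_mul, hid]
    have htrE := (LinearMap.IsIdempotentElem.isProj_range _ hid').trace
    rw [Matrix.trace_toLin'_eq] at htrE
    refine ⟨Module.finrank ℝ (LinearMap.range (Matrix.toLin' E)), ?_⟩
    rw [← htrE, hE, Matrix.trace_smul, htr, smul_eq_mul]
    field_simp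

/-- `exists_nat_mul` with the conclusion of `cas_sq` (package B1) as a hypothesis. -/
theorem b1p_exists_nat_mul_of_sq {m a c : ℕ} {A C : Matrix Ω Ω ℝ}
    (h : FHData Ω m a c A C) {RA RC : Matrix (Fin 2) (Fin 2) ℝ} {κ : ℝ}
    (hκ : psi m (a : ℝ) (c : ℝ) RA RC = κ • (1 : Matrix (Fin 2) (Fin 2) ℝ))
    (hsq : cas m (a : ℝ) (c : ℝ) (A ⊗ₖ (1 : Matrix (Fin 2) (Fin 2) ℝ))
        (C ⊗ₖ (1 : Matrix (Fin 2) (Fin 2) ℝ)) ((1 : Matrix Ω Ω ℝ) ⊗ₖ RA) ((1 : Matrix Ω Ω ℝ) ⊗ₖ RC)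
      * cas m (a : ℝ) (c : ℝ) (A ⊗ₖ (1 : Matrix (Fin 2) (Fin 2) ℝ))
        (C ⊗ₖ (1 : Matrix (Fin 2) (Fin 2) ℝ)) ((1 : Matrix Ω Ω ℝ) ⊗ₖ RA) ((1 : Matrix Ω Ω ℝ) ⊗ₖ RC)
      = psi m (a : ℝ) (c : ℝ) ((1 : Matrix Ω Ω ℝ) ⊗ₖ RA) ((1 : Matrix Ω Ω ℝ) ⊗ₖ RC)
        * cas m (a : ℝ) (c : ℝ) (A ⊗ₖ (1 : Matrix (Fin 2) (Fin 2) ℝ))
        (C ⊗ₖ (1 : Matrix (Fin 2) (Fin 2) ℝ)) ((1 : Matrix Ω Ω ℝ) ⊗ₖ RA)
        ((1 : Matrix Ω Ω ℝ) ⊗ₖ RC)) :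
    ∃ n : ℕ, (n : ℝ) * κ = 2 * Fintype.card Ω := by
  rw [b1p_psi_right, hκ, Matrix.kronecker_smul, Matrix.one_kronecker_one, Matrix.smul_mul,
    one_mul] at hsq
  refine b1p_nat_of_sq _ κ _ hsq (b1p_trace_cas h RA RC) ?_
  have := h.card_pos
  positivity

end B1p

end Cfsg.Agent.Lib.Lead.FH
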