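import Mathlib
import Cfsg.Agent.Lib.Helper74.JordanB

/-!
# Sectors of the unit circle and the eigenvalue/character bridge
-/

set_option autoImplicit false

open scoped Matrix ComplexConjugate

namespace Cfsg.Agent.Lib.Helper74.Jordan

lemma sector_aux (z : ℂ) : 0 ≤ (Real.pi - Complex.arg z) * 6 / Real.pi ∧
    (Real.pi - Complex.arg z) * 6 / Real.pi < 12 := by
  have hpi := Real.pi_pos
  have h1 := Complex.arg_le_pi z
  have h2 := Complex.neg_pi_lt_arg z
  constructor
  · apply div_nonneg _ hpi.le
    nlinarith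
  · rw [div_lt_iff₀ hpi]
    nlinarith

/-- The sector (one of twelve arcs of 30 degrees) containing a complex number. -/
noncomputable def sector (z : ℂ) : Fin 12 :=
  ⟨⌊(Real.pi - Complex.arg z) * 6 / Real.pi⌋₊,
    (Nat.floor_lt (sector_aux z).1).2 (by exact_mod_cast (sector_aux z).2)⟩

lemma sector_re {z w : ℂ} (hz : ‖z‖ = 1) (hw : ‖w‖ = 1) (h : sector z = sector w) :
    Real.sqrt 3 / 2 < (z⁻¹ * w).re := by
  have hpi := Real.pi_pos
  have hfl : ⌊(Real.pi - Complex.arg z) * 6 / Real.pi⌋₊
      = ⌊(Real.pi - Complex.arg w) * 6 / Real.pi⌋₊ := by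
    have := congrArg Fin.val h
    exact this
  set tz := (Real.pi - Complex.arg z) * 6 / Real.pi with htz
  set tw := (Real.pi - Complex.arg w) * 6 / Real.pi with htw
  have h1 := Nat.floor_le (sector_aux z).1
  have h2 := Nat.lt_floor_add_one tz
  have h3 := Nat.floor_le (sector_aux w).1
  have h4 := Nat.lt_floor_add_one tw
  rw [← htz] at h1
  rw [← htw] at h3
  rw [hfl] at h1 h2
  have h5 : |tz - tw| < 1 := by
    rw [abs_lt]; constructor <;> linarith
  have h6 : tz - tw = (Complex.arg w - Complex.arg z) * 6 / Real.pi := by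
    rw [htz, htw]; ring
  have h7 : |Complex.arg w - Complex.arg z| < Real.pi / 6 := by
    rw [h6, abs_div, abs_mul, abs_of_pos hpi, div_lt_iff₀ hpi] at h5
    have : |(6 : ℝ)| = 6 := abs_of_pos (by norm_num)
    rw [this] at h5
    linarith
  have hzexp : z = Complex.exp (Complex.arg z * Complex.I) := by
    have := Complex.norm_mul_exp_arg_mul_I z
    rw [hz] at this
    simpa using this.symm
  have hwexp : w = Complex.exp (Complex.arg w * Complex.I) := by
    have := Complex.norm_mul_exp_arg_mul_I w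
    rw [hw] at this
    simpa using this.symm
  have h8 : z⁻¹ * w = Complex.exp (((Complex.arg w - Complex.arg z : ℝ) : ℂ) * Complex.I) := by
    conv_lhs => rw [hzexp, hwexp]
    rw [← Complex.exp_neg, ← Complex.exp_add]
    congr 1
    push_cast
    ring
  rw [h8, Complex.exp_ofReal_mul_I_re, ← Real.cos_abs, ← Real.cos_pi_div_six]
  apply Real.cos_lt_cos_of_nonneg_of_le_pi_div_two (abs_nonneg _) _ h7
  linarith

section Bridge

variable {G : Type*} [Group G] [Fintype G] {ι : Type*} [Fintype ι] [DecidableEq ι]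

/-- If the traces of the powers of `k` are given by a nonnegative integer combination of
powers of roots of unity `w t` with real part exceeding `√3 / 2`, then `k` is near `1`. -/
lemma mem_nearSet_of_decomp (U : G →* Matrix ι ι ℂ) (hUu : ∀ g, (U g)ᴴ * U g = 1)
    {T : Type*} [Fintype T] (m : T → ℕ) (w : T → ℂ) (k : G)
    (hw : ∀ t, m t ≠ 0 → w t ^ Nat.card G = 1)
    (hdec : ∀ l : ℕ, (U (k ^ l)).trace = ∑ t, (m t : ℂ) * w t ^ l)
    (hre : ∀ t, m t ≠ 0 → Real.sqrt 3 / 2 < (w t).re) : k ∈ nearSet U := by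
  classical
  have hN : Nat.card G ≠ 0 := card_ne_zero'
  intro j hj hne
  have hpos := trace_proj_pos U hUu k hj hne
  rw [trace_proj] at hpos
  by_contra hlt
  apply hpos
  have h1 : ∀ l ∈ Finset.range (Nat.card G),
      ((ev (Nat.card G) j)⁻¹) ^ l * (U (k ^ l)).trace
        = ∑ t, (m t : ℂ) * ((ev (Nat.card G) j)⁻¹ * w t) ^ l := by
    intro l _
    rw [hdec, Finset.mul_sum]
    refine Finset.sum_congr rfl fun t _ => ?_
    rw [mul_pow]; ring
  rw [Finset.sum_congr rfl h1, Finset.sum_comm]
  have h2 : ∀ t ∈ (Finset.univ : Finset T),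
      ∑ l ∈ Finset.range (Nat.card G), (m t : ℂ) * ((ev (Nat.card G) j)⁻¹ * w t) ^ l = 0 := by
    intro t _
    by_cases hm : m t = 0
    · simp [hm]
    · rw [← Finset.mul_sum]
      have hwN : ((ev (Nat.card G) j)⁻¹ * w t) ^ Nat.card G = 1 := by
        rw [mul_pow, inv_pow, ev_pow hN, inv_one, one_mul, hw t hm]
      rw [geom_sum_root hN _ hwN, if_neg, mul_zero]
      intro h1
      apply hlt
      have h3 : w t = ev (Nat.card G) j := by
        have := congrArg (fun z => ev (Nat.card G) j * z) h1
        simp only [mul_one] at this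
        rw [← mul_assoc, mul_inv_cancel₀ (ev_ne_zero hN j), one_mul] at this
        exact this
      rw [← h3]
      exact hre t hm
  rw [Finset.sum_congr rfl h2, Finset.sum_const_zero, mul_zero]

end Bridge

end Cfsg.Agent.Lib.Helper74.Jordan
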