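-- Counting pairs of involutions with product of even order, Klein four Sylow 2-subgroups.
import Mathlib
import Cfsg.Agent.Lib.Helper52.KleinSylow
import Cfsg.Agent.Lib.Helper3.QuatInv
import Cfsg.Agent.Lib.Helper3.CharOrtho

set_option autoImplicit false

namespace Cfsg.Agent.Lib.Helper74.KleinCount

open Cfsg.Agent.Lib.Helper52

section Basic

variable {G : Type*} [Group G] [Finite G] (P : Sylow 2 G) (hP : IsKleinFour (P : Subgroup G))
include hP

/-- There are no elements of order `4`. -/
theorem sq_eq_one_of_pow_four {g : G} (hg : g ^ 4 = 1) : g * g = 1 := by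
  have hf2 : Fact (Nat.Prime 2) := ⟨Nat.prime_two⟩
  have hdvd : orderOf g ∣ 2 ^ 2 := orderOf_dvd_of_pow_eq_one (by norm_num; exact hg)
  obtain ⟨k, -, hk⟩ := (Nat.dvd_prime_pow Nat.prime_two).1 hdvd
  have hpg : IsPGroup 2 (Subgroup.zpowers g) :=
    IsPGroup.of_card (n := k) (by rw [Nat.card_zpowers, hk])
  obtain ⟨c, hc⟩ := Cfsg.Agent.Lib.Helper3.exists_conj_le_sylow P (Subgroup.zpowers g) hpg
  have h' := klein_sq P hP _ (hc g (Subgroup.mem_zpowers g))
  have h2 : g * g = c⁻¹ * ((c * g * c⁻¹) * (c * g * c⁻¹)) * c := by group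
  rw [h2, h', mul_one, inv_mul_cancel]

/-- Three distinct pairwise commuting involutions: each is the product of the other two. -/
theorem eq_mul_of_commute {u v z : G} (hu : u * u = 1) (hv : v * v = 1) (hz : z * z = 1)
    (hu1 : u ≠ 1) (hv1 : v ≠ 1) (hz1 : z ≠ 1)
    (huv : Commute u v) (huz : Commute u z) (hvz : Commute v z)
    (hne : u ≠ v) (hzu : z ≠ u) (hzv : z ≠ v) : z = u * v := by
  have hf2 : Fact (Nat.Prime 2) := ⟨Nat.prime_two⟩
  set S : Set G := {u, v, z} with hS
  have hSc : ∀ x ∈ S, ∀ y ∈ S, Commute x y := by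
    rintro x (rfl | rfl | rfl) y (rfl | rfl | rfl)
    · exact Commute.refl _
    · exact huv
    · exact huz
    · exact huv.symm
    · exact Commute.refl _
    · exact hvz
    · exact huz.symm
    · exact hvz.symm
    · exact Commute.refl _
  have hSsq : ∀ x ∈ S, x * x = 1 := by
    rintro x (rfl | rfl | rfl)
    · exact hu
    · exact hv
    · exact hz
  have h1 : ∀ x ∈ Subgroup.closure S, ∀ y ∈ S, Commute x y := by
    intro x hx y hy
    induction hx using Subgroup.closure_induction with
    | mem x hx => exact hSc x hx y hy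
    | one => exact Commute.one_left y
    | mul a b _ _ iha ihb => exact iha.mul_left ihb
    | inv a _ iha => exact iha.inv_left
  have h2 : ∀ x ∈ Subgroup.closure S, ∀ y ∈ Subgroup.closure S, Commute x y := by
    intro x hx y hy
    induction hy using Subgroup.closure_induction with
    | mem y hy => exact h1 x hx y hy
    | one => exact Commute.one_right x
    | mul a b _ _ iha ihb => exact iha.mul_right ihb
    | inv a _ iha => exact iha.inv_right
  have h3 : ∀ x ∈ Subgroup.closure S, x * x = 1 := by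
    intro x hx
    induction hx using Subgroup.closure_induction with
    | mem x hx => exact hSsq x hx
    | one => exact mul_one 1
    | mul a b ha hb iha ihb =>
      have hc : Commute a b := h2 a ha b hb
      calc a * b * (a * b) = a * (b * a) * b := by group
        _ = a * (a * b) * b := by rw [hc.eq]
        _ = (a * a) * (b * b) := by group
        _ = 1 := by rw [iha, ihb, mul_one]
    | inv a _ iha =>
      calc a⁻¹ * a⁻¹ = (a * a)⁻¹ := by group
        _ = 1 := by rw [iha, inv_one]
  have hpg : IsPGroup 2 (Subgroup.closure S) := by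
    intro x
    refine ⟨1, ?_⟩
    apply Subtype.ext
    rw [pow_one, sq]
    exact h3 x.1 x.2
  obtain ⟨c, hc⟩ := Cfsg.Agent.Lib.Helper3.exists_conj_le_sylow P (Subgroup.closure S) hpg
  have huS : u ∈ Subgroup.closure S := Subgroup.subset_closure (by simp [hS])
  have hvS : v ∈ Subgroup.closure S := Subgroup.subset_closure (by simp [hS])
  have hzS : z ∈ Subgroup.closure S := Subgroup.subset_closure (by simp [hS])
  have hinj : ∀ x y : G, c * x * c⁻¹ = c * y * c⁻¹ → x = y := by
    intro x y h
    have : x = c⁻¹ * (c * x * c⁻¹) * c := by group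
    rw [this, h]; group
  have hone : ∀ x : G, c * x * c⁻¹ = 1 → x = 1 := by
    intro x h
    apply hinj x 1
    rw [h]; group
  have key := klein_eq_mul P hP (c * u * c⁻¹) (c * v * c⁻¹) (c * z * c⁻¹) (hc u huS) (hc v hvS)
    (hc z hzS) (fun h => hu1 (hone u h)) (fun h => hv1 (hone v h)) (fun h => hne (hinj u v h))
    (fun h => hz1 (hone z h)) (fun h => hzu (hinj z u h)) (fun h => hzv (hinj z v h))
  apply hinj
  rw [key]; group

end Basic

section Dihedral

variable {G : Type*} [Group G] [Finite G]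

/-- The central involution of the dihedral group generated by two involutions with product of
even order. -/
theorem dihedral_center {t J : G} (ht : t * t = 1) (hJ : J * J = 1) (ht1 : t ≠ 1) (hJ1 : J ≠ 1)
    (he : 2 ∣ orderOf (t * J)) :
    (t * J) ^ (orderOf (t * J) / 2) * (t * J) ^ (orderOf (t * J) / 2) = 1 ∧
    (t * J) ^ (orderOf (t * J) / 2) ≠ 1 ∧ Commute t ((t * J) ^ (orderOf (t * J) / 2)) ∧
    Commute J ((t * J) ^ (orderOf (t * J) / 2)) ∧ (t * J) ^ (orderOf (t * J) / 2) ≠ J ∧
    (t * J) ^ (orderOf (t * J) / 2) ≠ t := by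
  set x := t * J with hx
  set m := orderOf x / 2 with hm
  have hn : orderOf x = 2 * m := by rw [hm]; omega
  have hopos : 0 < orderOf x := orderOf_pos x
  have hmpos : 0 < m := by omega
  have hzz : x ^ m * x ^ m = 1 := by rw [← pow_add, ← two_mul, ← hn, pow_orderOf_eq_one]
  have hz1 : x ^ m ≠ 1 := pow_ne_one_of_lt_orderOf hmpos.ne' (by omega)
  have htinv : t⁻¹ = t := inv_eq_of_mul_eq_one_left ht
  have hJinv : J⁻¹ = J := inv_eq_of_mul_eq_one_left hJ
  have hxinv : x⁻¹ = J * t := by rw [hx, mul_inv_rev, htinv, hJinv]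
  have hst : SemiconjBy t x x⁻¹ := by
    show t * x = x⁻¹ * t
    rw [hxinv, hx, ← mul_assoc, ht, one_mul, mul_assoc, ht, mul_one]
  have hsJ : SemiconjBy J x x⁻¹ := by
    show J * x = x⁻¹ * J
    rw [hxinv, hx, mul_assoc J t J]
  have hzinv : (x⁻¹) ^ m = x ^ m := by
    rw [inv_pow]; exact inv_eq_of_mul_eq_one_left hzz
  have hct : Commute t (x ^ m) := by
    have := hst.pow_right m
    rw [hzinv] at this
    exact this
  have hcJ : Commute J (x ^ m) := by
    have := hsJ.pow_right m
    rw [hzinv] at this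
    exact this
  have hm_of_comm : Commute t J → m = 1 := by
    intro hc
    have : x ^ 2 = 1 := by
      rw [sq, hx]
      calc t * J * (t * J) = t * (J * t) * J := by group
        _ = t * (t * J) * J := by rw [hc.eq]
        _ = (t * t) * (J * J) := by group
        _ = 1 := by rw [ht, hJ, mul_one]
    have h2 : orderOf x ∣ 2 := orderOf_dvd_of_pow_eq_one this
    have h3 : orderOf x ≤ 2 := Nat.le_of_dvd (by norm_num) h2
    omega
  refine ⟨hzz, hz1, hct, hcJ, ?_, ?_⟩
  · intro h
    have hc : Commute t J := by rw [← h]; exact hct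
    have hm1 := hm_of_comm hc
    rw [hm1, pow_one, hx] at h
    exact ht1 (by simpa using h)
  · intro h
    have hc : Commute t J := by rw [h] at hcJ; exact hcJ.symm
    have hm1 := hm_of_comm hc
    rw [hm1, pow_one, hx] at h
    exact hJ1 (by simpa using h)

omit [Finite G] in
/-- Multiplying an element of odd order by a commuting involution gives even order. -/
theorem even_of_odd_mul {w x : G} (hw : w * w = 1) (hw1 : w ≠ 1) (hc : Commute w x)
    (ho : ¬ 2 ∣ orderOf x) : 2 ∣ orderOf (w * x) := by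
  by_contra h
  have hodd : Odd (orderOf x * orderOf (w * x)) := by
    apply Odd.mul
    · exact Nat.odd_iff.2 (by omega)
    · exact Nat.odd_iff.2 (by omega)
  obtain ⟨k, hk⟩ := hodd
  have h1 : (w * x) ^ (orderOf x * orderOf (w * x)) = 1 := by
    rw [pow_mul']
    rw [pow_orderOf_eq_one, one_pow]
  have h2 : (w * x) ^ (orderOf x * orderOf (w * x)) = w := by
    rw [hc.mul_pow, pow_mul x, pow_orderOf_eq_one, one_pow, mul_one, hk, pow_succ, pow_mul,
      sq, hw, one_pow, one_mul]
  rw [h2] at h1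
  exact hw1 h1

end Dihedral

section Parity

variable {G : Type*} [Group G] [Finite G] (P : Sylow 2 G) (hP : IsKleinFour (P : Subgroup G))
include hP

/-- If `w` is an involution commuting with the involutions `t` and `J` (and different from
them) and `t * J` has even order, then `w` is the central involution of `⟨t, J⟩`. -/
theorem center_eq {t J w : G} (ht : t * t = 1) (hJ : J * J = 1) (hw : w * w = 1)
    (ht1 : t ≠ 1) (hJ1 : J ≠ 1) (hw1 : w ≠ 1) (hwt : Commute w t) (hwJ : Commute w J)
    (hwJne : w ≠ J) (hwtne : w ≠ t) (he : 2 ∣ orderOf (t * J)) :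
    (t * J) ^ (orderOf (t * J) / 2) = w := by
  obtain ⟨hzz, hz1, hct, hcJ, hzJ, hzt⟩ := dihedral_center ht hJ ht1 hJ1 he
  by_contra hne
  have hwz : Commute w ((t * J) ^ (orderOf (t * J) / 2)) := (hwt.mul_right hwJ).pow_right _
  have e1 := eq_mul_of_commute P hP hJ hw hzz hJ1 hw1 hz1 hwJ.symm hcJ hwz
    (fun h => hwJne h.symm) hzJ hne
  have e2 := eq_mul_of_commute P hP ht hw hzz ht1 hw1 hz1 hwt.symm hct hwz
    (fun h => hwtne h.symm) hzt hne
  have h3 : J = t := mul_right_cancel (e1.symm.trans e2)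
  rw [h3, ht, orderOf_one] at he
  omega

/-- In the situation of `center_eq`, the product `w * (t * J)` has odd order. -/
theorem odd_of_even_mul {t J w : G} (ht : t * t = 1) (hJ : J * J = 1) (hw : w * w = 1)
    (ht1 : t ≠ 1) (hJ1 : J ≠ 1) (hw1 : w ≠ 1) (hwt : Commute w t) (hwJ : Commute w J)
    (hwJne : w ≠ J) (hwtne : w ≠ t) (he : 2 ∣ orderOf (t * J)) :
    ¬ 2 ∣ orderOf (w * (t * J)) := by
  have hz := center_eq P hP ht hJ hw ht1 hJ1 hw1 hwt hwJ hwJne hwtne he
  set x := t * J with hx
  set m := orderOf x / 2 with hm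
  have hn : orderOf x = 2 * m := by rw [hm]; omega
  have hmodd : ¬ 2 ∣ m := by
    rintro ⟨j, hj⟩
    have h4 : (x ^ j) ^ 4 = 1 := by
      rw [← pow_mul]
      have : j * 4 = orderOf x := by rw [hn, hj]; ring
      rw [this, pow_orderOf_eq_one]
    have h5 := sq_eq_one_of_pow_four P hP h4
    rw [← pow_add, ← two_mul, ← hj, hz] at h5
    exact hw1 h5
  have hwx : Commute w x := hwt.mul_right hwJ
  have h6 : (w * x) ^ m = 1 := by
    obtain ⟨j, hj⟩ : Odd m := Nat.odd_iff.2 (by omega)
    rw [hwx.mul_pow, hz]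
    rw [hj, pow_succ, pow_mul, sq, hw, one_pow, one_mul, hw]
  intro h7
  exact hmodd (dvd_trans h7 (orderOf_dvd_of_pow_eq_one h6))

end Parity

section Count

open Classical

variable {G : Type*} [Group G] [Fintype G]

omit [Fintype G] in
theorem inv_facts {t : G} (h : orderOf t = 2) : t * t = 1 ∧ t ≠ 1 := by
  refine ⟨by rw [← sq, ← h, pow_orderOf_eq_one], ?_⟩
  rintro rfl
  rw [orderOf_one] at h
  omega

omit [Fintype G] in
theorem orderOf_two_of {t : G} (h : t * t = 1) (h1 : t ≠ 1) : orderOf t = 2 := by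
  have hf2 : Fact (Nat.Prime 2) := ⟨Nat.prime_two⟩
  exact orderOf_eq_prime (by rw [sq]; exact h) h1

omit [Fintype G] in
theorem orderOf_conj_eq (g s : G) : orderOf (g * s * g⁻¹) = orderOf s := by
  have := MulEquiv.orderOf_eq (MulAut.conj g) s
  rwa [MulAut.conj_apply] at this

/-- The involutions commuting with `w`, other than `w`. -/
noncomputable def invC (w : G) : Finset G :=
  Finset.univ.filter (fun s : G => orderOf s = 2 ∧ s ≠ w ∧ Commute s w)

theorem mem_invC {w s : G} : s ∈ invC w ↔ orderOf s = 2 ∧ s ≠ w ∧ Commute s w := by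
  simp [invC]

theorem card_invC_conj (g w : G) : (invC (g * w * g⁻¹)).card = (invC w).card := by
  symm
  apply Finset.card_nbij' (fun s => g * s * g⁻¹) (fun s => g⁻¹ * s * g)
  · intro s hs
    rw [Finset.mem_coe, mem_invC] at hs ⊢
    obtain ⟨h1, h2, h3⟩ := hs
    refine ⟨by rw [orderOf_conj_eq, h1], ?_, ?_⟩
    · intro (h : g * s * g⁻¹ = g * w * g⁻¹)
      apply h2
      have : s = g⁻¹ * (g * s * g⁻¹) * g := by group
      rw [this, h]; group
    · show g * s * g⁻¹ * (g * w * g⁻¹) = g * w * g⁻¹ * (g * s * g⁻¹)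
      calc g * s * g⁻¹ * (g * w * g⁻¹) = g * (s * w) * g⁻¹ := by group
        _ = g * (w * s) * g⁻¹ := by rw [h3.eq]
        _ = _ := by group
  · intro s hs
    rw [Finset.mem_coe, mem_invC] at hs ⊢
    obtain ⟨h1, h2, h3⟩ := hs
    refine ⟨?_, ?_, ?_⟩
    · have := orderOf_conj_eq g⁻¹ s
      rw [inv_inv] at this
      rw [this, h1]
    · intro (h : g⁻¹ * s * g = w)
      apply h2
      rw [← h]; group
    · show g⁻¹ * s * g * w = w * (g⁻¹ * s * g)
      calc g⁻¹ * s * g * w = g⁻¹ * (s * (g * w * g⁻¹)) * g := by group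
        _ = g⁻¹ * ((g * w * g⁻¹) * s) * g := by rw [h3.eq]
        _ = _ := by group
  · intro s _
    show g⁻¹ * (g * s * g⁻¹) * g = s
    group
  · intro s _
    show g * (g⁻¹ * s * g) * g⁻¹ = s
    group

omit [Fintype G] in
theorem mul_mem_invC_aux {w t : G} (hw : w * w = 1) (ht : t * t = 1) (ht1 : t ≠ 1)
    (htw : t ≠ w) (hc : Commute t w) :
    orderOf (w * t) = 2 ∧ w * t ≠ w ∧ Commute (w * t) w := by
  refine ⟨?_, ?_, (Commute.refl w).mul_left hc⟩
  · apply orderOf_two_of
    · calc w * t * (w * t) = w * (t * w) * t := by group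
        _ = w * (w * t) * t := by rw [hc.eq]
        _ = (w * w) * (t * t) := by group
        _ = 1 := by rw [hw, ht, mul_one]
    · intro h
      apply htw
      have h2 : w * t = w * w := by rw [h, hw]
      exact mul_left_cancel h2
  · intro h
    apply ht1
    have h2 : w * t = w * 1 := by rw [h, mul_one]
    exact mul_left_cancel h2

variable (P : Sylow 2 G) (hP : IsKleinFour (P : Subgroup G))
include hP

/-- Half of the involutions of `C(w)` other than `w` have even-order product with `J`. -/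
theorem two_mul_card_even {J w : G} (hJ2 : orderOf J = 2) (hw : w ∈ invC J) :
    2 * ((invC w).filter (fun t => 2 ∣ orderOf (t * J))).card = (invC w).card := by
  rw [mem_invC] at hw
  obtain ⟨hw2, hwJne, hwJ⟩ := hw
  obtain ⟨hww, hw1⟩ := inv_facts hw2
  obtain ⟨hJJ, hJ1⟩ := inv_facts hJ2
  have hcard : ((invC w).filter (fun t => 2 ∣ orderOf (t * J))).card =
      ((invC w).filter (fun t => ¬ 2 ∣ orderOf (t * J))).card := by
    apply Finset.card_nbij' (fun t => w * t) (fun t => w * t)
    · intro t ht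
      rw [Finset.mem_coe, Finset.mem_filter, mem_invC] at ht ⊢
      obtain ⟨⟨ht2, htw, htc⟩, he⟩ := ht
      obtain ⟨htt, ht1⟩ := inv_facts ht2
      refine ⟨mul_mem_invC_aux hww htt ht1 htw htc, ?_⟩
      have := odd_of_even_mul P hP htt hJJ hww ht1 hJ1 hw1 htc.symm hwJ hwJne (Ne.symm htw) he
      rwa [← mul_assoc] at this
    · intro t ht
      rw [Finset.mem_coe, Finset.mem_filter, mem_invC] at ht ⊢
      obtain ⟨⟨ht2, htw, htc⟩, he⟩ := ht
      obtain ⟨htt, ht1⟩ := inv_facts ht2
      refine ⟨mul_mem_invC_aux hww htt ht1 htw htc, ?_⟩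
      have := even_of_odd_mul hww hw1 (htc.symm.mul_right hwJ) he
      rwa [← mul_assoc] at this
    · intro t _
      show w * (w * t) = t
      rw [← mul_assoc, hww, one_mul]
    · intro t _
      show w * (w * t) = t
      rw [← mul_assoc, hww, one_mul]
  have := Finset.card_filter_add_card_filter_not (s := invC w) (fun t => 2 ∣ orderOf (t * J))
  omega

/-- The involutions with even-order product with `J`, fibred over the involutions of `C(J)`. -/
theorem card_even_eq_sum {J : G} (hJ2 : orderOf J = 2) :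
    (Finset.univ.filter (fun t : G => orderOf t = 2 ∧ 2 ∣ orderOf (t * J))).card =
      ∑ w ∈ invC J, ((invC w).filter (fun t => 2 ∣ orderOf (t * J))).card := by
  obtain ⟨hJJ, hJ1⟩ := inv_facts hJ2
  rw [Finset.card_eq_sum_card_fiberwise (f := fun t => (t * J) ^ (orderOf (t * J) / 2))
    (t := invC J)]
  · refine Finset.sum_congr rfl fun w hw => ?_
    congr 1
    ext t
    rw [mem_invC] at hw
    obtain ⟨hw2, hwJne, hwJ⟩ := hw
    obtain ⟨hww, hw1⟩ := inv_facts hw2
    simp only [Finset.mem_filter, Finset.mem_univ, true_and, mem_invC]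
    constructor
    · rintro ⟨⟨ht2, he⟩, hf⟩
      obtain ⟨htt, ht1⟩ := inv_facts ht2
      obtain ⟨hzz, hz1, hct, hcJ, hzJ, hzt⟩ := dihedral_center htt hJJ ht1 hJ1 he
      rw [hf] at hct hzt
      exact ⟨⟨ht2, fun h => hzt h.symm, hct⟩, he⟩
    · rintro ⟨⟨ht2, htw, htc⟩, he⟩
      obtain ⟨htt, ht1⟩ := inv_facts ht2
      exact ⟨⟨ht2, he⟩, center_eq P hP htt hJJ hww ht1 hJ1 hw1 htc.symm hwJ hwJne
        (Ne.symm htw) he⟩
  · intro t ht
    rw [Finset.mem_coe, Finset.mem_filter] at ht
    obtain ⟨-, ht2, he⟩ := ht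
    obtain ⟨htt, ht1⟩ := inv_facts ht2
    obtain ⟨hzz, hz1, hct, hcJ, hzJ, hzt⟩ := dihedral_center htt hJJ ht1 hJ1 he
    rw [Finset.mem_coe, mem_invC]
    exact ⟨orderOf_two_of hzz hz1, hzJ, hcJ.symm⟩

/-- The number of involutions of `C(J)` other than `J` is `2 |C(J)| / |C(P)|`. -/
theorem card_invC_mul {J : G} (hJ : J ∈ (P : Subgroup G)) (hJ1 : J ≠ 1) :
    (invC J).card * Nat.card (Subgroup.centralizer ((P : Subgroup G) : Set G)) =
      2 * Nat.card (Subgroup.centralizer ({J} : Set G)) := by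
  have hf2 : Fact (Nat.Prime 2) := ⟨Nat.prime_two⟩
  obtain ⟨x, y, hx, hy, hx1, hy1, hxy, hall⟩ := klein_exists_basis P hP
  obtain ⟨a, ha, ha1, haJ⟩ : ∃ a ∈ (P : Subgroup G), a ≠ 1 ∧ a ≠ J := by
    by_cases h : x = J
    · exact ⟨y, hy, hy1, fun h' => hxy (h.trans h'.symm)⟩
    · exact ⟨x, hx, hx1, h⟩
  have hJ2 := klein_orderOf P hP J hJ hJ1
  have hJJ : J * J = 1 := klein_sq P hP J hJ
  have haa : a * a = 1 := klein_sq P hP a ha
  have hcJa : Commute J a := klein_comm P hP J hJ a ha
  have ha2 := klein_orderOf P hP a ha ha1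
  obtain ⟨a', ha'⟩ : ∃ a' : G, a' = J * a := ⟨_, rfl⟩
  have ha'P : a' ∈ (P : Subgroup G) := by rw [ha']; exact mul_mem hJ ha
  have hJa' : J * a' = a := by rw [ha', ← mul_assoc, hJJ, one_mul]
  have ha'1 : a' ≠ 1 := by
    intro h
    apply haJ
    rw [h] at hJa'
    rw [← hJa', mul_one]
  have ha'J : a' ≠ J := by
    intro h
    apply ha1
    rw [h, hJJ] at hJa'
    exact hJa'.symm
  have ha'a : a' ≠ a := by
    intro h
    apply hJ1
    rw [h] at ha'
    have h2 : 1 * a = J * a := by rw [one_mul]; exact ha'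
    exact (mul_right_cancel h2).symm
  have ha'2 := klein_orderOf P hP a' ha'P ha'1
  have hcJa' : Commute J a' := klein_comm P hP J hJ a' ha'P
  have hPall : ∀ t ∈ (P : Subgroup G), t = 1 ∨ t = J ∨ t = a ∨ t = a' := by
    intro t ht
    by_cases h1 : t = 1
    · exact Or.inl h1
    by_cases h2 : t = J
    · exact Or.inr (Or.inl h2)
    by_cases h3 : t = a
    · exact Or.inr (Or.inr (Or.inl h3))
    right; right; right
    rw [ha']
    exact klein_eq_mul P hP J a t hJ ha ht hJ1 ha1 (Ne.symm haJ) h1 h2 h3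
  -- the two centralizers as finsets
  have hCP : Nat.card (Subgroup.centralizer ((P : Subgroup G) : Set G)) =
      (Finset.univ.filter (fun c : G => Commute c J ∧ Commute c a)).card := by
    rw [← Nat.card_eq_finsetCard]
    apply Nat.card_congr
    refine Equiv.subtypeEquivRight ?_
    intro c
    rw [Subgroup.mem_centralizer_iff, Finset.mem_filter]
    constructor
    · intro h
      exact ⟨Finset.mem_univ _, (h J hJ).symm, (h a ha).symm⟩
    · rintro ⟨-, h1, h2⟩ t ht
      rcases hPall t ht with rfl | rfl | rfl | rfl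
      · simp
      · exact h1.eq.symm
      · exact h2.eq.symm
      · rw [ha']
        exact ((h1.mul_right h2).eq).symm
  have hCJ : Nat.card (Subgroup.centralizer ({J} : Set G)) =
      (Finset.univ.filter (fun c : G => Commute c J)).card := by
    rw [← Nat.card_eq_finsetCard]
    apply Nat.card_congr
    refine Equiv.subtypeEquivRight ?_
    intro c
    rw [Subgroup.mem_centralizer_iff, Finset.mem_filter]
    constructor
    · intro h
      exact ⟨Finset.mem_univ _, (h J rfl).symm⟩
    · rintro ⟨-, h1⟩ t ht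
      rw [Set.mem_singleton_iff] at ht
      rw [ht]
      exact h1.eq.symm
  -- no element of `C(J)` swaps `a` and `a'`
  have hnoswap : ∀ c : G, Commute c J → c * a * c⁻¹ = a' → False := by
    intro c hc h1
    have hcJ : c * J * c⁻¹ = J := by rw [hc.eq, mul_inv_cancel_right]
    have h2 : c * a' * c⁻¹ = a := by
      calc c * a' * c⁻¹ = (c * J * c⁻¹) * (c * a * c⁻¹) := by rw [ha']; group
        _ = a := by rw [hcJ, h1, hJa']
    have hn : c ∈ Subgroup.normalizer ((P : Subgroup G) : Set G) := by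
      apply Subgroup.mem_normalizer_fintype
      intro n hn
      rcases hPall n hn with rfl | rfl | rfl | rfl
      · rw [mul_one, mul_inv_cancel]; exact one_mem _
      · rw [hcJ]; exact hJ
      · rw [h1]; exact ha'P
      · rw [h2]; exact ha
    exact ha'a (no_swap_of_mem_normalizer P (klein_comm P hP) c hn a a' ha h1 h2).symm
  -- every involution of `C(J)` other than `J` is `C(J)`-conjugate to `a` or `a'`
  have hexists : ∀ w ∈ invC J, ∃ c : G, Commute c J ∧ (c * a * c⁻¹ = w ∨ c * a' * c⁻¹ = w) := by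
    intro w hw
    rw [mem_invC] at hw
    obtain ⟨hw2, hwJne, hwJ⟩ := hw
    have hle : (P : Subgroup G) ≤ Subgroup.centralizer ({J} : Set G) := by
      intro p hp
      rw [Subgroup.mem_centralizer_iff]
      intro h hh
      rw [Set.mem_singleton_iff] at hh
      rw [hh]
      exact klein_comm P hP J hJ p hp
    have hwC : w ∈ Subgroup.centralizer ({J} : Set G) := by
      rw [Subgroup.mem_centralizer_iff]
      intro h hh
      rw [Set.mem_singleton_iff] at hh
      rw [hh]
      exact hwJ.eq.symm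
    have hw' : orderOf (⟨w, hwC⟩ : Subgroup.centralizer ({J} : Set G)) = 2 := by
      rw [Subgroup.orderOf_mk]; exact hw2
    obtain ⟨g, hg⟩ := exists_conj_mem_sylow_of_orderOf_two (P.subtype hle) ⟨w, hwC⟩ hw'
    rw [Sylow.coe_subtype, Subgroup.mem_subgroupOf] at hg
    have hg' : (g : G) * w * (g : G)⁻¹ ∈ (P : Subgroup G) := hg
    have hgJ : Commute (g : G) J := by
      have := g.2
      rw [Subgroup.mem_centralizer_iff] at this
      exact (this J rfl).symm
    have hne1 : (g : G) * w * (g : G)⁻¹ ≠ 1 := by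
      intro h
      have h3 := orderOf_conj_eq (g : G) w
      rw [h, orderOf_one, hw2] at h3
      omega
    have hneJ : (g : G) * w * (g : G)⁻¹ ≠ J := by
      intro h
      apply hwJne
      have : w = (g : G)⁻¹ * ((g : G) * w * (g : G)⁻¹) * (g : G) := by group
      rw [this, h, mul_assoc, hgJ.eq.symm, inv_mul_cancel_left]
    refine ⟨(g : G)⁻¹, hgJ.inv_left, ?_⟩
    rcases hPall _ hg' with h | h | h | h
    · exact absurd h hne1
    · exact absurd h hneJ
    · left
      rw [← h]; group
    · right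
      rw [← h]; group
  -- the fibres
  have hfib : ∀ w ∈ invC J,
      ((Finset.univ.filter (fun c : G => Commute c J)).filter
        (fun c => c * a * c⁻¹ = w ∨ c * a' * c⁻¹ = w)).card =
      (Finset.univ.filter (fun c : G => Commute c J ∧ Commute c a)).card := by
    intro w hw
    obtain ⟨c₀, hc₀J, hc₀⟩ := hexists w hw
    apply Finset.card_nbij' (fun c => c₀⁻¹ * c) (fun u => c₀ * u)
    · intro c hc
      rw [Finset.mem_coe, Finset.mem_filter, Finset.mem_filter] at hc
      obtain ⟨⟨-, hcJ⟩, hcw⟩ := hc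
      rw [Finset.mem_coe, Finset.mem_filter]
      have hdJ : Commute (c₀⁻¹ * c) J := hc₀J.inv_left.mul_left hcJ
      refine ⟨Finset.mem_univ _, hdJ, ?_⟩
      rcases hc₀ with h0 | h0 <;> rcases hcw with h1 | h1
      · show (c₀⁻¹ * c) * a = a * (c₀⁻¹ * c)
        calc (c₀⁻¹ * c) * a = c₀⁻¹ * (c * a * c⁻¹) * c := by group
          _ = c₀⁻¹ * (c₀ * a * c₀⁻¹) * c := by rw [h1, h0]
          _ = a * (c₀⁻¹ * c) := by group
      · exfalso
        apply hnoswap (c⁻¹ * c₀) (hcJ.inv_left.mul_left hc₀J)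
        calc c⁻¹ * c₀ * a * (c⁻¹ * c₀)⁻¹ = c⁻¹ * (c₀ * a * c₀⁻¹) * c := by group
          _ = c⁻¹ * (c * a' * c⁻¹) * c := by rw [h0, h1]
          _ = a' := by group
      · exfalso
        apply hnoswap (c₀⁻¹ * c) hdJ
        calc c₀⁻¹ * c * a * (c₀⁻¹ * c)⁻¹ = c₀⁻¹ * (c * a * c⁻¹) * c₀ := by group
          _ = c₀⁻¹ * (c₀ * a' * c₀⁻¹) * c₀ := by rw [h1, h0]
          _ = a' := by group
      · have hda' : Commute (c₀⁻¹ * c) a' := by
          show (c₀⁻¹ * c) * a' = a' * (c₀⁻¹ * c)
          calc (c₀⁻¹ * c) * a' = c₀⁻¹ * (c * a' * c⁻¹) * c := by group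
            _ = c₀⁻¹ * (c₀ * a' * c₀⁻¹) * c := by rw [h1, h0]
            _ = a' * (c₀⁻¹ * c) := by group
        have := hdJ.mul_right hda'
        rwa [hJa'] at this
    · intro u hu
      rw [Finset.mem_coe, Finset.mem_filter] at hu
      obtain ⟨-, huJ, hua⟩ := hu
      have hua' : Commute u a' := by rw [ha']; exact huJ.mul_right hua
      rw [Finset.mem_coe, Finset.mem_filter, Finset.mem_filter]
      refine ⟨⟨Finset.mem_univ _, hc₀J.mul_left huJ⟩, ?_⟩
      rcases hc₀ with h0 | h0
      · left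
        calc c₀ * u * a * (c₀ * u)⁻¹ = c₀ * (u * a) * u⁻¹ * c₀⁻¹ := by group
          _ = c₀ * (a * u) * u⁻¹ * c₀⁻¹ := by rw [hua.eq]
          _ = c₀ * a * c₀⁻¹ := by group
          _ = w := h0
      · right
        calc c₀ * u * a' * (c₀ * u)⁻¹ = c₀ * (u * a') * u⁻¹ * c₀⁻¹ := by group
          _ = c₀ * (a' * u) * u⁻¹ * c₀⁻¹ := by rw [hua'.eq]
          _ = c₀ * a' * c₀⁻¹ := by group
          _ = w := h0
    · intro c _
      show c₀ * (c₀⁻¹ * c) = c
      group
    · intro u _
      show c₀⁻¹ * (c₀ * u) = u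
      group
  -- double counting
  have hdc := Finset.sum_card_bipartiteAbove_eq_sum_card_bipartiteBelow
    (s := Finset.univ.filter (fun c : G => Commute c J)) (t := invC J)
    (fun c w => c * a * c⁻¹ = w ∨ c * a' * c⁻¹ = w)
  have hleft : ∀ c ∈ Finset.univ.filter (fun c : G => Commute c J),
      ((invC J).bipartiteAbove (fun c w => c * a * c⁻¹ = w ∨ c * a' * c⁻¹ = w) c).card = 2 := by
    intro c hc
    rw [Finset.mem_filter] at hc
    obtain ⟨-, hcJ⟩ := hc
    have hcJ' : c * J * c⁻¹ = J := by rw [hcJ.eq, mul_inv_cancel_right]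
    have hmem : ∀ b : G, orderOf b = 2 → b ≠ J → Commute J b → c * b * c⁻¹ ∈ invC J := by
      intro b hb2 hbJ hJb
      rw [mem_invC]
      refine ⟨by rw [orderOf_conj_eq, hb2], ?_, ?_⟩
      · intro h
        apply hbJ
        have : b = c⁻¹ * (c * b * c⁻¹) * c := by group
        rw [this, h, mul_assoc, hcJ.eq.symm, inv_mul_cancel_left]
      · show c * b * c⁻¹ * J = J * (c * b * c⁻¹)
        calc c * b * c⁻¹ * J = c * b * c⁻¹ * (c * J * c⁻¹) := by rw [hcJ']
          _ = c * (b * J) * c⁻¹ := by group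
          _ = c * (J * b) * c⁻¹ := by rw [hJb.eq]
          _ = (c * J * c⁻¹) * (c * b * c⁻¹) := by group
          _ = J * (c * b * c⁻¹) := by rw [hcJ']
    have hset : (invC J).bipartiteAbove (fun c w => c * a * c⁻¹ = w ∨ c * a' * c⁻¹ = w) c =
        {c * a * c⁻¹, c * a' * c⁻¹} := by
      ext w
      rw [Finset.mem_bipartiteAbove, Finset.mem_insert, Finset.mem_singleton]
      constructor
      · rintro ⟨-, h | h⟩
        · exact Or.inl h.symm
        · exact Or.inr h.symm
      · rintro (rfl | rfl)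
        · exact ⟨hmem a ha2 haJ hcJa, Or.inl rfl⟩
        · exact ⟨hmem a' ha'2 ha'J hcJa', Or.inr rfl⟩
    rw [hset]
    apply Finset.card_pair
    intro h
    apply ha'a
    have : a' = c⁻¹ * (c * a' * c⁻¹) * c := by group
    rw [this, ← h]; group
  have hright : ∀ w ∈ invC J,
      ((Finset.univ.filter (fun c : G => Commute c J)).bipartiteBelow
        (fun c w => c * a * c⁻¹ = w ∨ c * a' * c⁻¹ = w) w).card =
      (Finset.univ.filter (fun c : G => Commute c J ∧ Commute c a)).card := by
    intro w hw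
    rw [← hfib w hw]
    rfl
  rw [Finset.sum_congr rfl hleft, Finset.sum_congr rfl hright, Finset.sum_const,
    Finset.sum_const, smul_eq_mul, smul_eq_mul] at hdc
  rw [hCP, hCJ]
  omega

omit hP in
/-- The conjugates of `J` with even-order product with `J`, counted through `G`. -/
theorem card_conj_even (hone : ∀ s t : G, orderOf s = 2 → orderOf t = 2 → IsConj s t)
    {J : G} (hJ2 : orderOf J = 2) :
    (Finset.univ.filter (fun g : G => 2 ∣ orderOf (g * J * g⁻¹ * J))).card =
      (Finset.univ.filter (fun t : G => orderOf t = 2 ∧ 2 ∣ orderOf (t * J))).card *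
        Nat.card (Subgroup.centralizer ({J} : Set G)) := by
  rw [Finset.card_eq_sum_card_fiberwise (f := fun g => g * J * g⁻¹)
    (t := Finset.univ.filter (fun t : G => orderOf t = 2 ∧ 2 ∣ orderOf (t * J)))]
  · have h : ∀ t ∈ Finset.univ.filter (fun t : G => orderOf t = 2 ∧ 2 ∣ orderOf (t * J)),
        ((Finset.univ.filter (fun g : G => 2 ∣ orderOf (g * J * g⁻¹ * J))).filter
          (fun g => g * J * g⁻¹ = t)).card = Nat.card (Subgroup.centralizer ({J} : Set G)) := by
      intro t ht
      rw [Finset.mem_filter] at ht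
      obtain ⟨-, ht2, he⟩ := ht
      rw [← Cfsg.Agent.Lib.Helper3.card_filter_conj_of_isConj (hone J t hJ2 ht2)]
      congr 1
      ext g
      simp only [Finset.mem_filter, Finset.mem_univ, true_and]
      constructor
      · rintro ⟨-, h⟩
        exact h
      · intro h
        refine ⟨?_, h⟩
        rw [h]; exact he
    rw [Finset.sum_congr rfl h, Finset.sum_const, smul_eq_mul]
  · intro g hg
    rw [Finset.mem_coe, Finset.mem_filter] at hg ⊢
    exact ⟨Finset.mem_univ _, by rw [orderOf_conj_eq, hJ2], hg.2⟩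

/-- **The count.** For a group with Klein four Sylow `2`-subgroups and one class of
involutions: the number of `g` with `J^g J` of even order is `2 |C(J)|³ / |C(P)|²`. -/
theorem pair_count (hone : ∀ s t : G, orderOf s = 2 → orderOf t = 2 → IsConj s t)
    {J : G} (hJ : J ∈ (P : Subgroup G)) (hJ1 : J ≠ 1) :
    Nat.card {g : G // 2 ∣ orderOf (g * J * g⁻¹ * J)} *
      Nat.card (Subgroup.centralizer ((P : Subgroup G) : Set G)) ^ 2 =
      2 * Nat.card (Subgroup.centralizer ({J} : Set G)) ^ 3 := by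
  have hJ2 := klein_orderOf P hP J hJ hJ1
  have h1 : Nat.card {g : G // 2 ∣ orderOf (g * J * g⁻¹ * J)} =
      (Finset.univ.filter (fun g : G => 2 ∣ orderOf (g * J * g⁻¹ * J))).card := by
    rw [← Nat.card_eq_finsetCard]
    apply Nat.card_congr
    refine Equiv.subtypeEquivRight ?_
    intro g
    simp
  rw [h1, card_conj_even hone hJ2]
  have h2 := card_even_eq_sum P hP hJ2
  have h3 : ∀ w ∈ invC J, ((invC w).filter (fun t => 2 ∣ orderOf (t * J))).card * 2 =
      (invC J).card := by
    intro w hw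
    have h4 := two_mul_card_even P hP hJ2 hw
    obtain ⟨g, hg⟩ := isConj_iff.1 (hone J w hJ2 (mem_invC.1 hw).1)
    have h5 := card_invC_conj g J
    rw [hg] at h5
    omega
  have h6 : (Finset.univ.filter (fun t : G => orderOf t = 2 ∧ 2 ∣ orderOf (t * J))).card * 2 =
      (invC J).card * (invC J).card := by
    rw [h2, Finset.sum_mul, Finset.sum_congr rfl h3, Finset.sum_const, smul_eq_mul]
  have h7 := card_invC_mul P hP hJ hJ1
  set A := (Finset.univ.filter (fun t : G => orderOf t = 2 ∧ 2 ∣ orderOf (t * J))).card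
  set I := (invC J).card
  set cP := Nat.card (Subgroup.centralizer ((P : Subgroup G) : Set G))
  set cJ := Nat.card (Subgroup.centralizer ({J} : Set G))
  have h8 : 2 * (A * cJ * cP ^ 2) = 2 * (2 * cJ ^ 3) := by
    calc 2 * (A * cJ * cP ^ 2) = (A * 2) * cJ * cP ^ 2 := by ring
      _ = (I * cP) * (I * cP) * cJ := by rw [h6]; ring
      _ = 2 * (2 * cJ ^ 3) := by rw [h7]; ring
  exact Nat.eq_of_mul_eq_mul_left (by norm_num) h8

end Count

end Cfsg.Agent.Lib.Helper74.KleinCount
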