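import Mathlib
import Cfsg.Prelude.Def_Transfer
import Cfsg.Prelude.Def_Local
import Cfsg.Agent.Lib.Helper15.NormExt
import Cfsg.Agent.Lib.Helper63.PLength
import Cfsg.Agent.Lib.Helper80.CharKer
import Cfsg.Agent.Lib.Helper80.Gagola
import Cfsg.Agent.Lib.Helper22.PComp

/-!
# `p`-length one from extendibility of characters of the Sylow normalizer

Let `P` be a Sylow `p`-subgroup of `G`, `N = N_G(P)` and `K₀ = O_{p'}(N)`.  If every irreducible
character of `N` with `K₀` in its kernel extends to `G`, then `G` has `p`-length one: the normal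
closure `M` of `P` has a normal `p`-complement (Burnside transfer in a quotient, then Tate, as in
`Helper15.NormExt`), and `1 ≤ O_{p'}(M) ≤ M ≤ G` is a `p`-series.
-/

set_option autoImplicit false

namespace Cfsg.Agent.Lib.Helper74.PLenOne

open Cfsg Cfsg.Agent.Lib.Helper15 Cfsg.Agent.Lib.Helper63
open scoped commutatorElement

/-- **Burnside + Tate**, with `N_M(P) ≤ P C_M(P)` in place of `N_M(P) = P`. -/
theorem pPrime_of_normalizer_le {M : Type*} [Group M] [Finite M] {p : ℕ} [Fact p.Prime]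
    (P : Sylow p M)
    (hN : ∀ g ∈ Subgroup.normalizer ((P : Subgroup M) : Set M), ∃ u ∈ (P : Subgroup M),
      ∃ c ∈ Subgroup.centralizer ((P : Subgroup M) : Set M), g = u * c)
    (M₀ : Subgroup M) [M₀.Normal]
    (hle : ⁅(P : Subgroup M), (P : Subgroup M)⁆ ≤ M₀)
    (hfr : M₀ ⊓ (P : Subgroup M) ≤ ⁅(P : Subgroup M), (P : Subgroup M)⁆) :
    ∃ K : Subgroup M, ∀ x, x ∈ K ↔ (orderOf x).Coprime p := by
  classical
  have hp : p.Prime := Fact.out
  have hπs : Function.Surjective (QuotientGroup.mk' M₀) := QuotientGroup.mk'_surjective M₀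
  obtain ⟨Pb, hPb⟩ : ∃ Pb : Sylow p (M ⧸ M₀),
      (Pb : Subgroup (M ⧸ M₀)) = (P : Subgroup M).map (QuotientGroup.mk' M₀) :=
    ⟨P.mapSurjective hπs, Sylow.coe_mapSurjective hπs P⟩
  have hcomm : ∀ a ∈ (Pb : Subgroup (M ⧸ M₀)), ∀ b ∈ (Pb : Subgroup (M ⧸ M₀)),
      a * b = b * a := by
    intro a ha b hb
    rw [hPb] at ha hb
    obtain ⟨x, hx, rfl⟩ := ha
    obtain ⟨y, hy, rfl⟩ := hb
    have h1 : ⁅x, y⁆ ∈ M₀ := hle (Subgroup.commutator_mem_commutator hx hy)
    have h2 : (QuotientGroup.mk' M₀) ⁅x, y⁆ = 1 := (QuotientGroup.eq_one_iff _).mpr h1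
    rw [map_commutatorElement] at h2
    exact commutatorElement_eq_one_iff_mul_comm.mp h2
  have hmemR : ∀ y, y ∈ (P : Subgroup M) ⊔ M₀ ↔
      (QuotientGroup.mk' M₀) y ∈ (Pb : Subgroup (M ⧸ M₀)) := by
    intro y
    rw [hPb, ← Subgroup.mem_comap, Subgroup.comap_map_eq, QuotientGroup.ker_mk']
  have hNC : Subgroup.normalizer ((Pb : Subgroup (M ⧸ M₀)) : Set (M ⧸ M₀)) ≤
      Subgroup.centralizer ((Pb : Subgroup (M ⧸ M₀)) : Set (M ⧸ M₀)) := by
    intro q hq
    obtain ⟨x, rfl⟩ := hπs q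
    have hx1 : ∀ y ∈ (P : Subgroup M) ⊔ M₀, x * y * x⁻¹ ∈ (P : Subgroup M) ⊔ M₀ := by
      intro y hy
      rw [hmemR] at hy ⊢
      rw [map_mul, map_mul, map_inv]
      exact (Subgroup.mem_normalizer_iff.mp hq _).mp hy
    have hPR : (P : Subgroup M) ≤ (P : Subgroup M) ⊔ M₀ := le_sup_left
    have hxP : ((x • P : Sylow p M) : Subgroup M) ≤ (P : Subgroup M) ⊔ M₀ := by
      rw [Sylow.coe_subgroup_smul]
      rintro - ⟨z, hz, rfl⟩
      exact hx1 z (hPR hz)
    obtain ⟨h, hh⟩ := MulAction.exists_smul_eq ↥((P : Subgroup M) ⊔ M₀)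
      ((x • P).subtype hxP) (P.subtype hPR)
    simp_rw [Sylow.smul_subtype, Subgroup.smul_def, smul_smul] at hh
    have hn : (h : M) * x ∈ Subgroup.normalizer ((P : Subgroup M) : Set M) :=
      Sylow.smul_eq_iff_mem_normalizer.mp (Sylow.subtype_injective hh)
    obtain ⟨u, hu, c, hc, huc⟩ := hN _ hn
    have hx : x = ((h : M)⁻¹ * u) * c := by
      rw [mul_assoc, ← huc]; group
    have h1 : (QuotientGroup.mk' M₀) ((h : M)⁻¹ * u) ∈ (Pb : Subgroup (M ⧸ M₀)) :=
      (hmemR _).mp (Subgroup.mul_mem _ (Subgroup.inv_mem _ h.2) (hPR hu))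
    have h2 : ∀ b ∈ (Pb : Subgroup (M ⧸ M₀)),
        b * (QuotientGroup.mk' M₀) c = (QuotientGroup.mk' M₀) c * b := by
      intro b hb
      rw [hPb] at hb
      obtain ⟨y, hy, rfl⟩ := hb
      rw [← map_mul, ← map_mul]
      congr 1
      exact Subgroup.mem_centralizer_iff.mp hc y hy
    rw [Subgroup.mem_centralizer_iff]
    intro b hb
    rw [hx, map_mul]
    calc b * ((QuotientGroup.mk' M₀) ((h : M)⁻¹ * u) * (QuotientGroup.mk' M₀) c)
        = (b * (QuotientGroup.mk' M₀) ((h : M)⁻¹ * u)) * (QuotientGroup.mk' M₀) c := by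
          rw [mul_assoc]
      _ = ((QuotientGroup.mk' M₀) ((h : M)⁻¹ * u) * b) * (QuotientGroup.mk' M₀) c := by
          rw [hcomm b hb _ h1]
      _ = (QuotientGroup.mk' M₀) ((h : M)⁻¹ * u) * (b * (QuotientGroup.mk' M₀) c) := by
          rw [mul_assoc]
      _ = (QuotientGroup.mk' M₀) ((h : M)⁻¹ * u) * ((QuotientGroup.mk' M₀) c * b) := by
          rw [h2 b hb]
      _ = (QuotientGroup.mk' M₀) ((h : M)⁻¹ * u) * (QuotientGroup.mk' M₀) c * b := by
          rw [mul_assoc]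
  have hcompl := MonoidHom.ker_transferSylow_isComplement' Pb hNC
  obtain ⟨Kb, hKb⟩ : ∃ Kb : Subgroup (M ⧸ M₀), Kb = (MonoidHom.transferSylow Pb hNC).ker :=
    ⟨_, rfl⟩
  rw [← hKb] at hcompl
  have hKbn : Kb.Normal := by rw [hKb]; infer_instance
  have hK1n : (Kb.comap (QuotientGroup.mk' M₀)).Normal := hKbn.comap _
  have hK1P : Kb.comap (QuotientGroup.mk' M₀) ⊓ (P : Subgroup M) ≤
      (frattini P).map (P : Subgroup M).subtype := by
    rintro x ⟨hx1, hx2⟩
    have h1 : (QuotientGroup.mk' M₀) x ∈ Kb ⊓ (Pb : Subgroup (M ⧸ M₀)) :=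
      ⟨hx1, by rw [hPb]; exact Subgroup.mem_map_of_mem _ hx2⟩
    have h2 : Kb ⊓ (Pb : Subgroup (M ⧸ M₀)) = ⊥ := hcompl.disjoint.eq_bot
    rw [h2, Subgroup.mem_bot] at h1
    have h3 : x ∈ M₀ := (QuotientGroup.eq_one_iff x).mp h1
    have h4 : x ∈ ⁅(P : Subgroup M), (P : Subgroup M)⁆ := hfr ⟨h3, hx2⟩
    have h5 : ⁅(P : Subgroup M), (P : Subgroup M)⁆ =
        (commutator ↥(P : Subgroup M)).map (P : Subgroup M).subtype := by
      rw [commutator_def, Subgroup.map_commutator, ← MonoidHom.range_eq_map,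
        Subgroup.range_subtype]
    rw [h5] at h4
    exact Subgroup.map_mono
      (Cfsg.Agent.Lib.Helper1.commutator_le_frattini_of_pGroup p P.2) h4
  obtain ⟨K₂, hK₂⟩ := nx_pPrime_of_hasNormalPComplement
    (Cfsg.Agent.Lib.Helper55.tate_normal_pComplement P (Kb.comap (QuotientGroup.mk' M₀)) hK1P)
  refine ⟨K₂.map (Subgroup.subtype _), fun x => ⟨?_, fun hx => ?_⟩⟩
  · rintro ⟨y, hy, rfl⟩
    have := (hK₂ y).mp hy
    rwa [← Subgroup.orderOf_coe] at this
  · have hx1 : x ∈ Kb.comap (QuotientGroup.mk' M₀) := by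
      rw [Subgroup.mem_comap]
      have h1 : (QuotientGroup.mk' M₀ x) ^ Kb.index ∈ Kb := Subgroup.pow_index_mem Kb _
      have h2 : Kb.index = Nat.card (Pb : Subgroup (M ⧸ M₀)) := hcompl.symm.index_eq_card
      obtain ⟨n, hn⟩ := IsPGroup.iff_card.mp Pb.2
      apply nx_mem_of_pow_mem Kb _ h1
      rw [h2, hn]
      have h3 : orderOf (QuotientGroup.mk' M₀ x) ∣ orderOf x := orderOf_map_dvd _ x
      exact Nat.Coprime.pow_right n (Nat.Coprime.coprime_dvd_left h3 hx)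
    refine ⟨⟨x, hx1⟩, (hK₂ _).mpr ?_, rfl⟩
    rwa [Subgroup.orderOf_mk]

/-- If every irreducible character of `N/D` extends (after inflation to `N`) to `G`, the normal
closure of `D` in `G` meets `N` in `D`. -/
theorem closure_inf_le' {G : Type*} [Group G] [Finite G]
    (N : Subgroup G) (D : Subgroup ↥N) [D.Normal]
    (hext : ∀ ψ : Cfsg.IrrCharacter (↥N ⧸ D), ∃ χ : Cfsg.IrrCharacter G,
        ∀ x : ↥N, (χ : G → ℂ) x = (ψ : ↥N ⧸ D → ℂ) (x : ↥N ⧸ D)) :
    Subgroup.normalClosure ((D.map N.subtype : Subgroup G) : Set G) ⊓ N ≤ D.map N.subtype := by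
  rintro x ⟨hx1, hx2⟩
  by_contra hxD
  have hxD' : (⟨x, hx2⟩ : ↥N) ∉ D := fun h => hxD ⟨_, h, rfl⟩
  have hne : ((⟨x, hx2⟩ : ↥N) : ↥N ⧸ D) ≠ 1 :=
    fun h => hxD' ((QuotientGroup.eq_one_iff _).mp h)
  obtain ⟨ψ, hψ⟩ : ∃ ψ : Cfsg.IrrCharacter (↥N ⧸ D),
      (ψ : ↥N ⧸ D → ℂ) ((⟨x, hx2⟩ : ↥N) : ↥N ⧸ D) ≠ (ψ : ↥N ⧸ D → ℂ) 1 := by
    by_contra hcon
    push Not at hcon
    exact hne (Cfsg.Agent.Lib.Helper80.eq_one_of_forall_irr_eq hcon)
  obtain ⟨χ, hχ⟩ := hext ψ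
  have h2 : (χ : G → ℂ) 1 = (ψ : ↥N ⧸ D → ℂ) 1 := by
    have := hχ 1
    simpa using this
  have hker : Subgroup.normalClosure ((D.map N.subtype : Subgroup G) : Set G) ≤
      Cfsg.Agent.Lib.Helper80.irrKer χ := by
    apply Subgroup.normalClosure_le_normal
    rintro _ ⟨d, hd, rfl⟩
    rw [SetLike.mem_coe, Cfsg.Agent.Lib.Helper80.mem_irrKer]
    have h1 : (χ : G → ℂ) (d : G) = (ψ : ↥N ⧸ D → ℂ) ((d : ↥N) : ↥N ⧸ D) := hχ d
    have hd1 : ((d : ↥N) : ↥N ⧸ D) = 1 := (QuotientGroup.eq_one_iff d).mpr hd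
    rw [hd1] at h1
    rw [h2]
    exact h1
  have hxk := (Cfsg.Agent.Lib.Helper80.mem_irrKer χ x).mp (hker hx1)
  apply hψ
  have h1 : (χ : G → ℂ) x = (ψ : ↥N ⧸ D → ℂ) ((⟨x, hx2⟩ : ↥N) : ↥N ⧸ D) := hχ ⟨x, hx2⟩
  rw [← h1, hxk, h2]

/-- **`p`-length one from extendibility.** -/
theorem plengthLE_one_of_ext {G : Type*} [Group G] [Finite G] (p : ℕ) [Fact p.Prime]
    (P : Sylow p G) (N : Subgroup G)
    (hN : N = Subgroup.normalizer ((P : Subgroup G) : Set G))
    (hext : ∀ (D : Subgroup ↥N) [D.Normal], Cfsg.pPrimeCore p ↥N ≤ D →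
      ∀ ψ : Cfsg.IrrCharacter (↥N ⧸ D), ∃ χ : Cfsg.IrrCharacter G,
        ∀ x : ↥N, (χ : G → ℂ) x = (ψ : ↥N ⧸ D → ℂ) (x : ↥N ⧸ D)) :
    Cfsg.PLengthLE p 1 G := by
  classical
  have hp : p.Prime := Fact.out
  have hPN : (P : Subgroup G) ≤ N := by rw [hN]; exact Subgroup.le_normalizer
  obtain ⟨PN, hPNdef⟩ : ∃ PN : Subgroup ↥N, PN = (P : Subgroup G).subgroupOf N := ⟨_, rfl⟩
  have hPNn : PN.Normal := by
    rw [hPNdef]
    exact (Subgroup.normal_subgroupOf_iff_le_normalizer hPN).mpr hN.le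
  have hmemPN : ∀ x : ↥N, x ∈ PN ↔ (x : G) ∈ (P : Subgroup G) := by
    intro x; rw [hPNdef, Subgroup.mem_subgroupOf]
  obtain ⟨K0, hK0def⟩ : ∃ K0 : Subgroup ↥N, K0 = Cfsg.pPrimeCore p ↥N := ⟨_, rfl⟩
  have hK0n : K0.Normal := by rw [hK0def]; exact Cfsg.Agent.Lib.Helper22.pPrimeCore_normal' p ↥N
  have hK0cop : (Nat.card K0).Coprime p := by
    rw [hK0def]; exact card_pPrimeCore_coprime' p ↥N
  have hmap : PN.map N.subtype = P := by
    rw [hPNdef]; exact Subgroup.map_subgroupOf_eq_of_le hPN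
  have hmapc : (⁅PN, PN⁆).map N.subtype = ⁅(P : Subgroup G), (P : Subgroup G)⁆ := by
    rw [Subgroup.map_commutator, hmap]
  -- `K0 ∩ P = 1`
  have hF2 : ∀ z : ↥N, z ∈ K0 → (z : G) ∈ (P : Subgroup G) → z = 1 := by
    intro z hz hzP
    have h1 : orderOf z ∣ Nat.card K0 := by
      have := orderOf_dvd_natCard (⟨z, hz⟩ : K0)
      rwa [Subgroup.orderOf_mk] at this
    obtain ⟨k, hk⟩ := P.2 ⟨(z : G), hzP⟩
    have hk' : (z : G) ^ p ^ k = 1 := by
      have := congrArg Subtype.val hk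
      simpa using this
    have h2 : orderOf z ∣ p ^ k := by
      rw [← Subgroup.orderOf_coe]
      exact orderOf_dvd_of_pow_eq_one hk'
    have h3 : (orderOf z).Coprime (p ^ k) :=
      Nat.Coprime.pow_right k (Nat.Coprime.coprime_dvd_left h1 hK0cop)
    exact orderOf_eq_one_iff.mp (Nat.Coprime.eq_one_of_dvd h3 h2)
  have hdisj : Disjoint K0 PN := by
    rw [Subgroup.disjoint_def]
    intro x hx1 hx2
    exact hF2 x hx1 ((hmemPN x).mp hx2)
  -- `K0` centralizes `P`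
  have hF3 : ∀ z : ↥N, z ∈ K0 → ∀ u : G, u ∈ (P : Subgroup G) → u * (z : G) = (z : G) * u := by
    intro z hz u hu
    have h1 : Commute z (⟨u, hPN hu⟩ : ↥N) :=
      Subgroup.commute_of_normal_of_disjoint K0 PN hK0n hPNn hdisj z _ hz ((hmemPN _).mpr hu)
    have h2 := congrArg Subtype.val h1.eq
    exact h2.symm
  obtain ⟨D1, hD1def⟩ : ∃ D1 : Subgroup ↥N, D1 = PN ⊔ K0 := ⟨_, rfl⟩
  have hD1n : D1.Normal := by rw [hD1def]; infer_instance
  obtain ⟨D2, hD2def⟩ : ∃ D2 : Subgroup ↥N, D2 = ⁅PN, PN⁆ ⊔ K0 := ⟨_, rfl⟩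
  have hD2n : D2.Normal := by rw [hD2def]; infer_instance
  have hA := closure_inf_le' N D1 (hext D1 (by rw [hD1def, hK0def]; exact le_sup_right))
  have hB := closure_inf_le' N D2 (hext D2 (by rw [hD2def, hK0def]; exact le_sup_right))
  obtain ⟨M, hMdef⟩ : ∃ M : Subgroup G, M = Subgroup.normalClosure ((P : Subgroup G) : Set G) :=
    ⟨_, rfl⟩
  obtain ⟨M₀, hM₀def⟩ : ∃ M₀ : Subgroup G, M₀ =
      Subgroup.normalClosure ((⁅(P : Subgroup G), (P : Subgroup G)⁆ : Subgroup G) : Set G) :=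
    ⟨_, rfl⟩
  have hMn : M.Normal := by rw [hMdef]; infer_instance
  have hM₀n : M₀.Normal := by rw [hM₀def]; infer_instance
  have hPM : (P : Subgroup G) ≤ M := by rw [hMdef]; exact Subgroup.le_normalClosure
  have hcM₀ : ⁅(P : Subgroup G), (P : Subgroup G)⁆ ≤ M₀ := by
    rw [hM₀def]; exact Subgroup.le_normalClosure
  have hMle : M ≤ Subgroup.normalClosure ((D1.map N.subtype : Subgroup G) : Set G) := by
    rw [hMdef]
    apply Subgroup.normalClosure_mono
    intro x hx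
    have hx' : x ∈ PN.map N.subtype := by rw [hmap]; exact hx
    exact Subgroup.map_mono (by rw [hD1def]; exact le_sup_left) hx'
  have hM₀le : M₀ ≤ Subgroup.normalClosure ((D2.map N.subtype : Subgroup G) : Set G) := by
    rw [hM₀def]
    apply Subgroup.normalClosure_mono
    intro x hx
    have hx' : x ∈ (⁅PN, PN⁆).map N.subtype := by rw [hmapc]; exact hx
    exact Subgroup.map_mono (by rw [hD2def]; exact le_sup_left) hx'
  -- elements of `M ∩ N`
  have hF1 : ∀ x : G, x ∈ M → x ∈ N → ∃ u ∈ (P : Subgroup G), ∃ z : ↥N, z ∈ K0 ∧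
      x = u * (z : G) := by
    intro x hxM hxN
    obtain ⟨d, hd, rfl⟩ := hA ⟨hMle hxM, hxN⟩
    rw [SetLike.mem_coe, hD1def] at hd
    obtain ⟨y, hy, z, hz, rfl⟩ := Subgroup.mem_sup_of_normal_left.mp hd
    exact ⟨(y : G), (hmemPN y).mp hy, z, hz, rfl⟩
  obtain ⟨PM, hPMcoe⟩ : ∃ PM : Sylow p ↥M,
      (PM : Subgroup ↥M) = (P : Subgroup G).subgroupOf M := ⟨P.subtype hPM, rfl⟩
  have hPMmap : (PM : Subgroup ↥M).map M.subtype = P := by
    rw [hPMcoe, Subgroup.map_subgroupOf_eq_of_le hPM]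
  have hcomm_map : (⁅(PM : Subgroup ↥M), (PM : Subgroup ↥M)⁆).map M.subtype =
      ⁅(P : Subgroup G), (P : Subgroup G)⁆ := by
    rw [Subgroup.map_commutator, hPMmap]
  have hmemPM : ∀ x : ↥M, x ∈ (PM : Subgroup ↥M) ↔ (x : G) ∈ (P : Subgroup G) := by
    intro x; rw [hPMcoe, Subgroup.mem_subgroupOf]
  have hN' : ∀ g ∈ Subgroup.normalizer ((PM : Subgroup ↥M) : Set ↥M),
      ∃ u ∈ (PM : Subgroup ↥M), ∃ c ∈ Subgroup.centralizer ((PM : Subgroup ↥M) : Set ↥M),
        g = u * c := by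
    intro g hg
    have hgN : (g : G) ∈ N := by
      rw [hN]
      refine mem_normalizer_of_conj_subset (P : Subgroup G) (g : G) (fun a ha => ?_)
      have h1 : (⟨a, hPM ha⟩ : ↥M) ∈ (PM : Subgroup ↥M) := (hmemPM _).mpr ha
      have h2 := (Subgroup.mem_normalizer_iff.mp hg _).mp h1
      exact (hmemPM _).mp h2
    obtain ⟨u, hu, z, hz, huz⟩ := hF1 (g : G) g.2 hgN
    have hzM : (z : G) ∈ M := by
      have h1 : (z : G) = u⁻¹ * (g : G) := by rw [huz]; group
      rw [h1]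
      exact M.mul_mem (M.inv_mem (hPM hu)) g.2
    refine ⟨⟨u, hPM hu⟩, (hmemPM _).mpr hu, ⟨(z : G), hzM⟩, ?_, Subtype.ext huz⟩
    rw [Subgroup.mem_centralizer_iff]
    intro y hy
    apply Subtype.ext
    exact hF3 z hz (y : G) ((hmemPM y).mp hy)
  have hle' : ⁅(PM : Subgroup ↥M), (PM : Subgroup ↥M)⁆ ≤ M₀.subgroupOf M := by
    intro x hx
    rw [Subgroup.mem_subgroupOf]
    apply hcM₀
    rw [← hcomm_map]
    exact ⟨x, hx, rfl⟩
  have hfr' : M₀.subgroupOf M ⊓ (PM : Subgroup ↥M) ≤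
      ⁅(PM : Subgroup ↥M), (PM : Subgroup ↥M)⁆ := by
    rintro x ⟨h1, h2⟩
    have h1' : (x : G) ∈ M₀ := Subgroup.mem_subgroupOf.mp h1
    have h2' : (x : G) ∈ (P : Subgroup G) := (hmemPM x).mp h2
    obtain ⟨d, hd, hdx⟩ := hB ⟨hM₀le h1', hPN h2'⟩
    rw [SetLike.mem_coe, hD2def] at hd
    obtain ⟨y, hy, z, hz, rfl⟩ := Subgroup.mem_sup_of_normal_left.mp hd
    have hyc : (y : G) ∈ ⁅(P : Subgroup G), (P : Subgroup G)⁆ := by
      rw [← hmapc]; exact ⟨y, hy, rfl⟩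
    have hcP : ⁅(P : Subgroup G), (P : Subgroup G)⁆ ≤ (P : Subgroup G) := by
      rw [Subgroup.commutator_le]
      intro a ha b hb
      rw [commutatorElement_def]
      exact Subgroup.mul_mem _ (Subgroup.mul_mem _ (Subgroup.mul_mem _ ha hb)
        (Subgroup.inv_mem _ ha)) (Subgroup.inv_mem _ hb)
    have hyP : (y : G) ∈ (P : Subgroup G) := hcP hyc
    have hzP : (z : G) ∈ (P : Subgroup G) := by
      have h3 : (z : G) = (y : G)⁻¹ * (x : G) := by
        rw [← hdx]; simp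
      rw [h3]
      exact Subgroup.mul_mem _ (Subgroup.inv_mem _ hyP) h2'
    have hz1 : z = 1 := hF2 z hz hzP
    have h3 : (x : G) ∈ ⁅(P : Subgroup G), (P : Subgroup G)⁆ := by
      rw [← hdx, hz1]; simpa using hyc
    rw [← hcomm_map] at h3
    obtain ⟨w, hw, hwx⟩ := h3
    have : w = x := Subtype.ext hwx
    rwa [← this]
  obtain ⟨K', hK'⟩ := pPrime_of_normalizer_le PM hN' (M₀.subgroupOf M) hle' hfr'
  have hmemK : ∀ x : G, x ∈ K'.map M.subtype ↔ x ∈ M ∧ (orderOf x).Coprime p := by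
    intro x
    constructor
    · rintro ⟨y, hy, rfl⟩
      refine ⟨y.2, ?_⟩
      have := (hK' y).mp hy
      rwa [← Subgroup.orderOf_coe] at this
    · rintro ⟨hx, hc⟩
      refine ⟨⟨x, hx⟩, (hK' _).mpr ?_, rfl⟩
      rwa [Subgroup.orderOf_mk]
  have hKn : (K'.map M.subtype).Normal := by
    constructor
    intro n hn g
    rw [hmemK] at hn ⊢
    exact ⟨hMn.conj_mem n hn.1 g, by rw [nx_orderOf_conj]; exact hn.2⟩
  -- the `p`-series `1 ≤ K ≤ M ≤ G`
  let W : ℕ → Subgroup G := fun n =>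
    if n = 0 then ⊥ else if n = 1 then K'.map M.subtype else if n = 2 then M else ⊤
  have hW0 : W 0 = ⊥ := rfl
  have hW1 : W 1 = K'.map M.subtype := rfl
  have hW2 : W 2 = M := rfl
  have hW3 : ∀ n, 3 ≤ n → W n = ⊤ := by
    intro n hn
    show (if n = 0 then ⊥ else if n = 1 then K'.map M.subtype else if n = 2 then M else ⊤) = ⊤
    rw [if_neg (by omega), if_neg (by omega), if_neg (by omega)]
  have hs : IsPSeries p W :=
    { zero := hW0
      normal := by
        intro n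
        rcases Nat.lt_or_ge n 3 with h | h
        · interval_cases n
          · rw [hW0]; infer_instance
          · rw [hW1]; exact hKn
          · rw [hW2]; exact hMn
        · rw [hW3 n h]; infer_instance
      even := by
        intro n hev x hx
        rcases Nat.lt_or_ge n 3 with h | h
        · interval_cases n
          · rw [hW1, hmemK] at hx
            exact ⟨orderOf x, hx.2, by rw [hW0, pow_orderOf_eq_one]; exact Subgroup.one_mem _⟩
          · exact absurd hev (by decide)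
          · refine ⟨M.index, ?_, by rw [hW2]; exact Subgroup.pow_index_mem M x⟩
            have h1 : M.index ∣ (P : Subgroup G).index := Subgroup.index_dvd_of_le hPM
            exact Nat.Coprime.coprime_dvd_left h1
              ((Nat.Prime.coprime_iff_not_dvd hp).mpr P.not_dvd_index).symm
        · exact ⟨1, Nat.coprime_one_left p, by rw [hW3 n h]; exact Subgroup.mem_top _⟩
      odd := by
        intro n hodd x hx
        rcases Nat.lt_or_ge n 3 with h | h
        · interval_cases n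
          · exact absurd (by decide : Even 0) hodd
          · rw [hW2] at hx
            have hpos : orderOf x ≠ 0 := (orderOf_pos x).ne'
            obtain ⟨k, m, hm, hkm⟩ := Nat.exists_eq_pow_mul_and_not_dvd hpos p hp.ne_one
            refine ⟨k, ?_⟩
            rw [hW1, hmemK]
            refine ⟨M.pow_mem hx _, ?_⟩
            have h1 : (x ^ p ^ k) ^ m = 1 := by
              rw [← pow_mul, ← hkm]; exact pow_orderOf_eq_one x
            have h2 : orderOf (x ^ p ^ k) ∣ m := orderOf_dvd_of_pow_eq_one h1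
            exact Nat.Coprime.coprime_dvd_left h2
              ((Nat.Prime.coprime_iff_not_dvd hp).mpr hm).symm
          · exact absurd (by decide : Even 2) hodd
        · exact ⟨0, by rw [hW3 n h]; exact Subgroup.mem_top _⟩ }
  exact plengthLE_of_series hs (hW3 3 le_rfl)

end Cfsg.Agent.Lib.Helper74.PLenOne
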