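import Mathlib
import Cfsg.Agent.Lib.Helper74.FrobSchur

/-!
# Real representations and the Frobenius-Schur indicator (matrix level)

* `fs_of_real_matrix`: a matrix representation with real entries whose squared traces average
  to one has indicator one.
* `exists_real_form`: an irreducible complex matrix representation with a nondegenerate
  symmetric invariant form is conjugate to a real one.
-/

set_option autoImplicit false

open scoped ComplexConjugate Matrix ComplexOrder

namespace Cfsg.Agent.Lib.Helper74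

section Real

variable {G : Type*} [Group G] [Fintype G] {m : ℕ}

/-- The complexification of a real matrix representation. -/
noncomputable def complexify (Yr : G →* Matrix (Fin m) (Fin m) ℝ) :
    G →* Matrix (Fin m) (Fin m) ℂ :=
  (Complex.ofRealHom.mapMatrix : Matrix (Fin m) (Fin m) ℝ →+* Matrix (Fin m) (Fin m) ℂ).toMonoidHom.comp Yr

omit [Fintype G] in
lemma complexify_apply (Yr : G →* Matrix (Fin m) (Fin m) ℝ) (g : G) (i j : Fin m) :
    complexify Yr g i j = ((Yr g i j : ℝ) : ℂ) := rfl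

omit [Fintype G] in
lemma complexify_trace (Yr : G →* Matrix (Fin m) (Fin m) ℝ) (g : G) :
    (complexify Yr g).trace = (((Yr g).trace : ℝ) : ℂ) := by
  simp only [Matrix.trace, Matrix.diag_apply, complexify_apply]
  push_cast
  rfl

/-- A real matrix representation whose squared traces average to one has Frobenius-Schur
indicator one. -/
theorem fs_of_real_matrix (hm : 0 < m) (Yr : G →* Matrix (Fin m) (Fin m) ℝ)
    (hsq : (Nat.card G : ℂ)⁻¹ * ∑ s : G, (((Yr s).trace : ℝ) : ℂ) * (((Yr s).trace : ℝ) : ℂ) = 1) :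
    (Nat.card G : ℂ)⁻¹ * ∑ s : G, (((Yr (s * s)).trace : ℝ) : ℂ) = 1 := by
  classical
  set Y := complexify Yr with hY
  have hfr : Module.finrank ℂ (invForms Y) = 1 := by
    have h1 := finrank_invForms Y
    simp_rw [hY, complexify_trace] at h1
    rw [hsq] at h1
    exact_mod_cast h1
  -- the standard invariant symmetric form
  set M₁ := avgForm Y 1 with hM₁
  have hM₁mem : M₁ ∈ invForms Y := avgForm_mem Y 1
  have hM₁symm : M₁ᵀ = M₁ := by
    rw [hM₁, ← avgForm_transpose, Matrix.transpose_one]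
  have hM₁ne : M₁ ≠ 0 := by
    intro h0
    have i : Fin m := ⟨0, hm⟩
    have h1 : (∑ s : G, (Y s)ᵀ * 1 * Y s) = 0 := by
      have h2 : (Nat.card G : ℂ)⁻¹ • (∑ s : G, (Y s)ᵀ * 1 * Y s) = 0 := by
        rw [← avgForm_apply, ← hM₁, h0]
      rcases smul_eq_zero.1 h2 with h3 | h3
      · exact absurd (inv_eq_zero.1 h3) card_cast_ne_zero
      · exact h3
    have h4 := congrFun (congrFun h1 i) i
    simp only [Matrix.sum_apply, Matrix.mul_one, Matrix.mul_apply, Matrix.transpose_apply,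
      Matrix.zero_apply, hY, complexify_apply] at h4
    have h5 : ∑ s : G, ∑ k : Fin m, Yr s k i * Yr s k i = 0 := by
      have : ((∑ s : G, ∑ k : Fin m, Yr s k i * Yr s k i : ℝ) : ℂ) = 0 := by
        push_cast
        exact h4
      exact_mod_cast this
    have h6 := (Finset.sum_eq_zero_iff_of_nonneg (fun s _ =>
      Finset.sum_nonneg (fun k _ => mul_self_nonneg (Yr s k i)))).1 h5 1 (Finset.mem_univ _)
    have h7 := (Finset.sum_eq_zero_iff_of_nonneg (fun k _ => mul_self_nonneg (Yr 1 k i))).1 h6 i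
      (Finset.mem_univ _)
    rw [map_one, Matrix.one_apply_eq] at h7
    norm_num at h7
  have hall : ∀ M ∈ invForms Y, Mᵀ = (1 : ℂ) • M := by
    intro M hM
    obtain ⟨c, hc⟩ := (finrank_eq_one_iff_of_nonzero' (⟨M₁, hM₁mem⟩ : invForms Y)
      (fun h => hM₁ne (congrArg Subtype.val h))).1 hfr ⟨M, hM⟩
    have hc' : M = c • M₁ := by
      have := congrArg Subtype.val hc
      simpa using this.symm
    rw [one_smul, hc', Matrix.transpose_smul, hM₁symm]
  have h2 := avg_trace_sq_eq Y 1 hall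
  simp_rw [hY, complexify_trace] at h2
  rw [h2, one_mul, hsq]

end Real

section RealForm

variable {G : Type*} [Group G] [Fintype G] {n : ℕ}

/-- Entrywise complex conjugation as a ring homomorphism. -/
noncomputable abbrev cj : Matrix (Fin n) (Fin n) ℂ →+* Matrix (Fin n) (Fin n) ℂ :=
  (starRingEnd ℂ).mapMatrix

lemma cj_apply (A : Matrix (Fin n) (Fin n) ℂ) (i j : Fin n) : cj A i j = conj (A i j) := rfl

lemma cj_cj (A : Matrix (Fin n) (Fin n) ℂ) : cj (cj A) = A := by
  ext i j
  simp [cj_apply]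

lemma cj_smul (c : ℂ) (A : Matrix (Fin n) (Fin n) ℂ) : cj (c • A) = conj c • cj A := by
  ext i j
  simp [cj_apply]

lemma cj_conjTranspose (A : Matrix (Fin n) (Fin n) ℂ) : cj Aᴴ = Aᵀ := by
  ext i j
  simp [cj_apply, Matrix.conjTranspose_apply]

lemma conjTranspose_eq_cj (A : Matrix (Fin n) (Fin n) ℂ) : Aᴴ = cj Aᵀ := by
  ext i j
  simp [cj_apply, Matrix.conjTranspose_apply]

lemma cj_transpose (A : Matrix (Fin n) (Fin n) ℂ) : (cj A)ᵀ = Aᴴ := by
  ext i j
  simp [cj_apply, Matrix.conjTranspose_apply]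

/-- An irreducible complex matrix representation with a nondegenerate symmetric invariant
bilinear form is conjugate to a representation with real entries. -/
theorem exists_real_form [NeZero n] (X : G →* Matrix (Fin n) (Fin n) ℂ)
    (hschur : ∀ A : Matrix (Fin n) (Fin n) ℂ, (∀ g, A * X g = X g * A) → ∃ c : ℂ, A = c • 1)
    (M : Matrix (Fin n) (Fin n) ℂ) (hM : ∀ g, (X g)ᵀ * M * X g = M) (hMs : Mᵀ = M)
    (hMu : IsUnit M) :
    ∃ S : Matrix (Fin n) (Fin n) ℂ, IsUnit S.det ∧
      ∀ g, cj (S⁻¹ * X g * S) = S⁻¹ * X g * S := by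
  classical
  set H : Matrix (Fin n) (Fin n) ℂ := ∑ g : G, (X g)ᴴ * X g with hH
  have hinv : ∀ h, (X h)ᴴ * H * X h = H := by
    intro h
    rw [hH, Finset.mul_sum, Finset.sum_mul]
    refine Fintype.sum_equiv (Equiv.mulRight h) _ _ ?_
    intro g
    simp [map_mul, Matrix.conjTranspose_mul, Matrix.mul_assoc]
  have hpd : H.PosDef := by
    rw [hH, ← Finset.add_sum_erase Finset.univ _ (Finset.mem_univ (1 : G))]
    refine Matrix.PosDef.add_posSemidef ?_ ?_
    · rw [map_one]; simpa using Matrix.PosDef.one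
    · exact Matrix.posSemidef_sum _ (fun g _ => Matrix.posSemidef_conjTranspose_mul_self _)
  have hHherm : Hᴴ = H := hpd.isHermitian
  have hMdet : IsUnit M.det := (Matrix.isUnit_iff_isUnit_det _).1 hMu
  have hMX : ∀ g, M * X g = (X g⁻¹)ᵀ * M := by
    intro g
    calc M * X g = ((X g⁻¹)ᵀ * (X g)ᵀ) * M * X g := by
          rw [← Matrix.transpose_mul, ← map_mul, mul_inv_cancel, map_one, Matrix.transpose_one,
            Matrix.one_mul]
      _ = (X g⁻¹)ᵀ * ((X g)ᵀ * M * X g) := by simp only [Matrix.mul_assoc]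
      _ = (X g⁻¹)ᵀ * M := by rw [hM g]
  have hHX : ∀ g, H * X g = (X g⁻¹)ᴴ * H := by
    intro g
    calc H * X g = ((X g⁻¹)ᴴ * (X g)ᴴ) * H * X g := by
          rw [← Matrix.conjTranspose_mul, ← map_mul, mul_inv_cancel, map_one,
            Matrix.conjTranspose_one, Matrix.one_mul]
      _ = (X g⁻¹)ᴴ * ((X g)ᴴ * H * X g) := by simp only [Matrix.mul_assoc]
      _ = (X g⁻¹)ᴴ * H := by rw [hinv g]
  have hHX' : ∀ g, cj H * cj (X g) = (X g⁻¹)ᵀ * cj H := by
    intro g
    have h1 := congrArg cj (hHX g)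
    rw [map_mul, map_mul, cj_conjTranspose] at h1
    exact h1
  obtain ⟨K, hK⟩ : ∃ K : Matrix (Fin n) (Fin n) ℂ, K = M⁻¹ * cj H := ⟨_, rfl⟩
  have hMK : M * K = cj H := by
    rw [hK, ← Matrix.mul_assoc, Matrix.mul_nonsing_inv _ hMdet, Matrix.one_mul]
  have hXK : ∀ g, X g * K = K * cj (X g) := by
    intro g
    have h1 : M * (X g * K) = M * (K * cj (X g)) := by
      rw [← Matrix.mul_assoc, hMX, Matrix.mul_assoc, hMK, ← Matrix.mul_assoc M, hMK, hHX']
    calc X g * K = M⁻¹ * (M * (X g * K)) := by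
          rw [← Matrix.mul_assoc, Matrix.nonsing_inv_mul _ hMdet, Matrix.one_mul]
      _ = M⁻¹ * (M * (K * cj (X g))) := by rw [h1]
      _ = K * cj (X g) := by
          rw [← Matrix.mul_assoc, Matrix.nonsing_inv_mul _ hMdet, Matrix.one_mul]
  have hcjK : ∀ g, cj K * X g = cj (X g) * cj K := by
    intro g
    have h2 := congrArg cj (hXK g)
    rw [map_mul, map_mul, cj_cj] at h2
    exact h2.symm
  have hcomm : ∀ g, (K * cj K) * X g = X g * (K * cj K) := by
    intro g
    rw [Matrix.mul_assoc, hcjK, ← Matrix.mul_assoc, ← hXK, Matrix.mul_assoc]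
  obtain ⟨c, hc⟩ := hschur _ hcomm
  -- `c` is a positive real number
  have hKu : IsUnit K := by
    rw [hK]
    exact (Matrix.isUnit_nonsing_inv_iff.2 hMu).mul (hpd.isUnit.map cj)
  have hKH : Kᴴ * H * K = conj c • cj H := by
    have e1 : Kᴴ = cj H * cj M⁻¹ := by
      rw [hK, Matrix.conjTranspose_mul, conjTranspose_eq_cj (cj H), conjTranspose_eq_cj M⁻¹,
        Matrix.transpose_nonsing_inv, hMs, cj_transpose, hHherm]
    have e3 : cj K * K = conj c • 1 := by
      have h3 := congrArg cj hc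
      rw [map_mul, cj_cj, cj_smul, map_one] at h3
      exact h3
    have e2 : cj M⁻¹ * (H * K) = cj K * K := by
      rw [hK, map_mul, cj_cj, Matrix.mul_assoc]
    rw [e1, Matrix.mul_assoc, Matrix.mul_assoc, e2, e3, Matrix.mul_smul, Matrix.mul_one]
  have hpd2 : (Kᴴ * H * K).PosDef :=
    hpd.conjTranspose_mul_mul_same (Matrix.mulVec_injective_of_isUnit hKu)
  have hpd3 : (cj H).PosDef := by
    have h4 : cj H = Hᵀ := by
      rw [← cj_conjTranspose, hHherm]
    rw [h4]
    exact hpd.transpose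
  have ht2 := hpd2.trace_pos
  have ht3 := hpd3.trace_pos
  rw [hKH, Matrix.trace_smul, smul_eq_mul] at ht2
  obtain ⟨τ, hτ⟩ : ∃ τ : ℂ, τ = (cj H).trace := ⟨_, rfl⟩
  rw [← hτ] at ht2 ht3
  obtain ⟨r, hr, hcr⟩ : ∃ r : ℝ, 0 < r ∧ c = (r : ℂ) := by
    obtain ⟨h5, h6⟩ := Complex.pos_iff.1 ht2
    obtain ⟨h7, h8⟩ := Complex.pos_iff.1 ht3
    have h8' : τ.im = 0 := by linarith
    have e5 : (conj c * τ).re = c.re * τ.re := by
      simp [Complex.mul_re, h8']
    have e6 : (conj c * τ).im = - (c.im * τ.re) := by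
      simp [Complex.mul_im, h8']
    rw [e5] at h5
    rw [e6] at h6
    have h9 : c.im = 0 := by
      have : c.im * τ.re = 0 := by linarith
      exact (mul_eq_zero.1 this).resolve_right h7.ne'
    refine ⟨c.re, (mul_pos_iff_of_pos_right h7).1 h5, ?_⟩
    apply Complex.ext
    · simp
    · simp [h9]
  -- normalise
  obtain ⟨a, ha⟩ : ∃ a : ℝ, a = (Real.sqrt r)⁻¹ := ⟨_, rfl⟩
  have haa : a * a * r = 1 := by
    have hs : Real.sqrt r * Real.sqrt r = r := Real.mul_self_sqrt hr.le
    have hs0 : Real.sqrt r ≠ 0 := (Real.sqrt_pos.2 hr).ne'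
    have h1 : a * Real.sqrt r = 1 := by rw [ha]; exact inv_mul_cancel₀ hs0
    calc a * a * r = a * a * (Real.sqrt r * Real.sqrt r) := by rw [hs]
      _ = (a * Real.sqrt r) * (a * Real.sqrt r) := by ring
      _ = 1 := by rw [h1]; norm_num
  obtain ⟨K', hK'⟩ : ∃ K' : Matrix (Fin n) (Fin n) ℂ, K' = (a : ℂ) • K := ⟨_, rfl⟩
  have hK'K' : K' * cj K' = 1 := by
    rw [hK', cj_smul, Complex.conj_ofReal, Matrix.smul_mul, Matrix.mul_smul, hc, smul_smul,
      smul_smul, hcr]
    have h1 : (a : ℂ) * (a : ℂ) * (r : ℂ) = 1 := by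
      have := congrArg (fun x : ℝ => (x : ℂ)) haa
      push_cast at this
      exact this
    rw [h1, one_smul]
  have hXK' : ∀ g, X g * K' = K' * cj (X g) := by
    intro g
    rw [hK', Matrix.mul_smul, hXK, Matrix.smul_mul]
  -- the family `S z`
  have hS : ∀ x : ℝ, K' * cj (((1 : ℂ) + Complex.I * x) • (1 : Matrix (Fin n) (Fin n) ℂ)
      + ((1 : ℂ) - Complex.I * x) • K')
      = ((1 : ℂ) + Complex.I * x) • (1 : Matrix (Fin n) (Fin n) ℂ)
        + ((1 : ℂ) - Complex.I * x) • K' := by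
    intro x
    rw [map_add, cj_smul, cj_smul, map_one, Matrix.mul_add, Matrix.mul_smul, Matrix.mul_smul,
      Matrix.mul_one, hK'K']
    have e1 : conj ((1 : ℂ) + Complex.I * x) = 1 - Complex.I * x := by
      simp [Complex.ext_iff]
    have e2 : conj ((1 : ℂ) - Complex.I * x) = 1 + Complex.I * x := by
      simp [Complex.ext_iff]
    rw [e1, e2, add_comm]
  -- a nonzero polynomial
  let Mx : Matrix (Fin n) (Fin n) (Polynomial ℂ) :=
    (Polynomial.C 1 + Polynomial.C Complex.I * Polynomial.X) •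
        (1 : Matrix (Fin n) (Fin n) (Polynomial ℂ))
      + (Polynomial.C 1 - Polynomial.C Complex.I * Polynomial.X) •
        (Polynomial.C.mapMatrix K')
  have heval : ∀ z : ℂ, (Polynomial.evalRingHom z).mapMatrix Mx
      = ((1 : ℂ) + Complex.I * z) • (1 : Matrix (Fin n) (Fin n) ℂ)
        + ((1 : ℂ) - Complex.I * z) • K' := by
    intro z
    ext i j
    by_cases hij : i = j
    · simp [Mx, hij]
    · simp [Mx, hij]
  have hdet : ∀ z : ℂ, Polynomial.eval z Mx.det
      = (((1 : ℂ) + Complex.I * z) • (1 : Matrix (Fin n) (Fin n) ℂ)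
        + ((1 : ℂ) - Complex.I * z) • K').det := by
    intro z
    rw [← heval z, ← RingHom.map_det]
    rfl
  have hp0 : Mx.det ≠ 0 := by
    intro h0
    have h1 := hdet (-Complex.I)
    rw [h0, Polynomial.eval_zero] at h1
    have e1 : (1 : ℂ) + Complex.I * (-Complex.I) = 2 := by
      rw [mul_neg, Complex.I_mul_I]; norm_num
    have e2 : (1 : ℂ) - Complex.I * (-Complex.I) = 0 := by
      rw [mul_neg, Complex.I_mul_I]; norm_num
    rw [e1, e2, zero_smul, add_zero, Matrix.det_smul, Matrix.det_one, mul_one] at h1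
    exact (pow_ne_zero _ (two_ne_zero)) h1.symm
  obtain ⟨x, hx⟩ : ∃ x : ℝ, Polynomial.eval (x : ℂ) Mx.det ≠ 0 := by
    by_contra hcon
    push Not at hcon
    apply hp0
    apply Polynomial.eq_zero_of_infinite_isRoot
    refine Set.Infinite.mono ?_ (Set.infinite_range_of_injective Complex.ofReal_injective)
    rintro _ ⟨x, rfl⟩
    exact hcon x
  rw [hdet] at hx
  obtain ⟨S, hSdef⟩ : ∃ S : Matrix (Fin n) (Fin n) ℂ,
      S = ((1 : ℂ) + Complex.I * x) • (1 : Matrix (Fin n) (Fin n) ℂ)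
        + ((1 : ℂ) - Complex.I * x) • K' := ⟨_, rfl⟩
  have hSK : K' * cj S = S := by rw [hSdef]; exact hS x
  have hSdet : IsUnit S.det := by rw [hSdef]; exact isUnit_iff_ne_zero.2 hx
  refine ⟨S, hSdet, fun g => ?_⟩
  obtain ⟨R, hR⟩ : ∃ R : Matrix (Fin n) (Fin n) ℂ, R = S⁻¹ * X g * S := ⟨_, rfl⟩
  rw [← hR]
  have h1 : S * R = X g * S := by
    rw [hR, ← Matrix.mul_assoc, ← Matrix.mul_assoc, Matrix.mul_nonsing_inv _ hSdet,
      Matrix.one_mul]
  have h3 : cj S * cj R = cj (X g) * cj S := by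
    have := congrArg cj h1
    rw [map_mul, map_mul] at this
    exact this
  have h2 : S * cj R = S * R := by
    calc S * cj R = (K' * cj S) * cj R := by rw [hSK]
      _ = K' * (cj S * cj R) := by rw [Matrix.mul_assoc]
      _ = K' * (cj (X g) * cj S) := by rw [h3]
      _ = (K' * cj (X g)) * cj S := by rw [Matrix.mul_assoc]
      _ = (X g * K') * cj S := by rw [hXK']
      _ = X g * (K' * cj S) := by rw [Matrix.mul_assoc]
      _ = X g * S := by rw [hSK]
      _ = S * R := h1.symm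
  calc cj R = S⁻¹ * (S * cj R) := by
        rw [← Matrix.mul_assoc, Matrix.nonsing_inv_mul _ hSdet, Matrix.one_mul]
    _ = S⁻¹ * (S * R) := by rw [h2]
    _ = R := by
        rw [← Matrix.mul_assoc, Matrix.nonsing_inv_mul _ hSdet, Matrix.one_mul]

end RealForm

end Cfsg.Agent.Lib.Helper74
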